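import Cfsg.Agent.Lib.Helper84.KulsFUNCaux
import Cfsg.Agent.Lib.Helper16.KulsFA
import Cfsg.Agent.Lib.Helper30.KulsFB

/-!
# Kulshammer piece FUNC (helper84): final form
-/

set_option autoImplicit false
set_option linter.unusedSectionVars false
set_option linter.unusedVariables false

namespace Cfsg.Agent.Lib.Helper84.Kuls

open Cfsg Cfsg.Agent.Lib.Helper21 Cfsg.Agent.Lib.Helper22 Cfsg.Agent.Lib.Helper1

universe u

open scoped Classical in
/-- FUNC -/
theorem kuls_func {p : ℕ} [Fact p.Prime] {M : Ideal AlgInt} (hM : IsPModular p M)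
    {K : Type} [Field K] (res : ℂ → K)
    (hadd : ∀ x y, MemLocalRing M x → MemLocalRing M y → res (x + y) = res x + res y)
    (hmul : ∀ x y, MemLocalRing M x → MemLocalRing M y → res (x * y) = res x * res y)
    (hone : res 1 = 1)
    (hzero : ∀ x, MemLocalRing M x → (res x = 0 ↔ MemLocalIdeal M x))
    {G : Type u} [Group G] [Fintype G] [DecidableEq G]
    (B : Set (IrrCharacter G)) (hB : IsPBlock M B) (hrank : blockRank p B = 1)
    (hspan : ∀ g₀ : G, IsPRegular p g₀ → ∃ c : IrrCharacter G → ℂ, (∀ χ, MemLocalRing M (c χ)) ∧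
      ∀ g : G, IsPRegular p g →
        ∑ᶠ χ : IrrCharacter G, c χ * (χ : G → ℂ) g = if IsConj g g₀ then 1 else 0) :
    ∃ φ₀ : invAlg K G →ₗ[K] K, ∀ φ : invAlg K G →ₗ[K] K,
      (∀ X Y, φ (X * Y) = φ (Y * X)) → (∀ X, IsNilpotent X → φ X = 0) →
      (∀ X, φ (eB res B * X) = φ X) → ∃ c : K, φ = c • φ₀ := by
  have hp0 : (p : K) = 0 := by
    rw [← Cfsg.Agent.Lib.Helper82.res_natCast res hM hadd hone hzero p]
    exact (hzero _ (locRing_natCast hM p)).mpr ((locIdeal_natCast_iff hM p).mpr dvd_rfl)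
  exact kuls_func_aux hM res hadd hmul hone hzero B hB hrank hspan
    (fun φ hsym hnil => Cfsg.Agent.Lib.Helper16.Kuls.kuls_funcA p hp0 φ hsym hnil)
    (fun χ a => Cfsg.Agent.Lib.Helper30.Kuls.kuls_funcB B χ a)

end Cfsg.Agent.Lib.Helper84.Kuls
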