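import Mathlib
import Cfsg.Agent.S2581
import Cfsg.Agent.Lib.Helper51.GUCDefs

/-!
# S2646 piece GUC-MODEL (helper84)

The number of invertible Hermitian matrices fixed by the Jordan matrix of type `d` equals the
number of invertible matrices commuting with the nilpotent part `NN K d` and Hermitian with
respect to the block anti-diagonal permutation matrix `Pm K d`.
-/

set_option autoImplicit false

namespace Cfsg.Agent.Lib.Helper84.GUCMODEL

open Matrix Cfsg.Agent.Lib.Helper51.GUC

section stdef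

variable {K : Type*} [Field K] {q : ℕ} {ι : Type*}

/-- conjugate transpose -/
def st (q : ℕ) (M : Matrix ι ι K) : Matrix ι ι K := (M.map (· ^ q))ᵀ

theorem st_apply (M : Matrix ι ι K) (i j : ι) : st q M i j = (M j i) ^ q := rfl

theorem st_smul (c : K) (A : Matrix ι ι K) : st q (c • A) = c ^ q • st q A := by
  ext i j
  simp only [st_apply, Matrix.smul_apply, smul_eq_mul, mul_pow]

end stdef

section frob

variable {K : Type*} [Field K] [Fintype K] {q : ℕ}

theorem q_ne_zero (hK : Fintype.card K = q ^ 2) : q ≠ 0 := by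
  rintro rfl
  have : 0 < Fintype.card K := Fintype.card_pos
  rw [hK] at this
  simp at this

theorem add_pow_q (hK : Fintype.card K = q ^ 2) (x y : K) : (x + y) ^ q = x ^ q + y ^ q := by
  obtain ⟨p, hp⟩ := CharP.exists K
  have := hp
  have hpp : Fact p.Prime := ⟨CharP.char_is_prime K p⟩
  obtain ⟨n, -, hn⟩ := FiniteField.card K p
  have hq : q ∣ p ^ (n : ℕ) := by
    rw [← hn, hK]
    exact dvd_pow_self q two_ne_zero
  obtain ⟨m, -, rfl⟩ := (Nat.dvd_prime_pow hpp.out).1 hq
  exact add_pow_char_pow x y p m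

theorem pow_pow_q (hK : Fintype.card K = q ^ 2) (x : K) : (x ^ q) ^ q = x := by
  rw [← pow_mul, ← sq, ← hK, FiniteField.pow_card]

theorem exists_pow_ne (hK : Fintype.card K = q ^ 2) : ∃ x : K, x ^ q ≠ x := by
  classical
  by_contra hcon
  have hcon : ∀ x : K, x ^ q = x := fun x => by
    by_contra hx
    exact hcon ⟨x, hx⟩
  have hq2 : 2 ≤ q := by
    have h1 : 1 < Fintype.card K := Fintype.one_lt_card
    rw [hK] at h1
    by_contra h
    have : q = 0 ∨ q = 1 := by omega
    rcases this with rfl | rfl <;> simp at h1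
  obtain ⟨g, hg⟩ := IsCyclic.exists_generator (α := Kˣ)
  have ho : orderOf g = Fintype.card Kˣ := by
    rw [orderOf_eq_card_of_forall_mem_zpowers hg, Nat.card_eq_fintype_card]
  rw [Fintype.card_units, hK] at ho
  have h1 : g ^ (q - 1) = 1 := by
    have h2 : (g : K) ^ q = g := hcon g
    apply Units.ext
    rw [Units.val_pow_eq_pow_val, Units.val_one]
    have h3 : (g : K) ^ (q - 1) * g = 1 * g := by
      rw [← pow_succ, Nat.sub_add_cancel (by omega), h2, one_mul]
    exact mul_right_cancel₀ g.ne_zero h3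
  have hdvd := orderOf_dvd_of_pow_eq_one h1
  rw [ho] at hdvd
  have hle := Nat.le_of_dvd (by omega) hdvd
  have : q ^ 2 ≥ q * 2 := by nlinarith
  omega

variable {ι : Type*} [Fintype ι] [DecidableEq ι]

theorem st_mul (hK : Fintype.card K = q ^ 2) (A B : Matrix ι ι K) :
    st q (A * B) = st q B * st q A := by
  ext i j
  simp only [st_apply, Matrix.mul_apply]
  have : ∀ (s : Finset ι) (f : ι → K), (∑ x ∈ s, f x) ^ q = ∑ x ∈ s, (f x) ^ q := by
    intro s f
    induction s using Finset.induction_on with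
    | empty => simp [q_ne_zero hK]
    | insert a s ha ih => rw [Finset.sum_insert ha, Finset.sum_insert ha, add_pow_q hK, ih]
  rw [this]
  refine Finset.sum_congr rfl fun x _ => ?_
  rw [mul_pow, mul_comm]

theorem st_one (hK : Fintype.card K = q ^ 2) : st q (1 : Matrix ι ι K) = 1 := by
  ext i j
  rw [st_apply, Matrix.one_apply, Matrix.one_apply]
  by_cases h : i = j
  · subst h
    simp
  · rw [if_neg h, if_neg (fun h' => h h'.symm), zero_pow (q_ne_zero hK)]

theorem st_add (hK : Fintype.card K = q ^ 2) (A B : Matrix ι ι K) :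
    st q (A + B) = st q A + st q B := by
  ext i j
  simp only [st_apply, Matrix.add_apply]
  exact add_pow_q hK _ _

end frob

section perm

variable {K : Type*} [Field K] {t : ℕ} (d : Fin t → ℕ)

/-- reversal inside each block -/
def rv (x : (k : Fin t) × Fin (d k)) : (k : Fin t) × Fin (d k) := ⟨x.1, Fin.rev x.2⟩

theorem rv_rv (x : (k : Fin t) × Fin (d k)) : rv d (rv d x) = x := by
  obtain ⟨k, i⟩ := x
  simp [rv]

theorem Pm_apply' (x y : (k : Fin t) × Fin (d k)) :
    Pm K d x y = if y = rv d x then 1 else 0 := by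
  obtain ⟨k, i⟩ := x
  obtain ⟨l, j⟩ := y
  unfold Pm rv
  rw [Matrix.of_apply]
  by_cases h : k = l
  · subst h
    have h1 : (j = Fin.rev i) ↔ ((i : ℕ) + (j : ℕ) + 1 = d k) := by
      rw [Fin.ext_iff, Fin.val_rev]
      have := i.2
      have := j.2
      omega
    by_cases h2 : j = Fin.rev i
    · rw [if_pos ⟨rfl, h1.mp h2⟩, if_pos (by rw [h2])]
    · rw [if_neg (fun hh => h2 (h1.mpr hh.2)), if_neg]
      intro hh
      exact h2 (eq_of_heq (Sigma.mk.inj hh).2)
  · rw [if_neg (fun hh => h hh.1), if_neg]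
    intro hh
    exact h (congrArg Sigma.fst hh).symm

theorem Pm_mul_apply (M : Matrix ((k : Fin t) × Fin (d k)) ((k : Fin t) × Fin (d k)) K)
    (x z : (k : Fin t) × Fin (d k)) : (Pm K d * M) x z = M (rv d x) z := by
  rw [Matrix.mul_apply]
  simp_rw [Pm_apply', ite_mul, one_mul, zero_mul]
  rw [Finset.sum_ite_eq']
  simp

theorem mul_Pm_apply (M : Matrix ((k : Fin t) × Fin (d k)) ((k : Fin t) × Fin (d k)) K)
    (x z : (k : Fin t) × Fin (d k)) : (M * Pm K d) x z = M x (rv d z) := by
  rw [Matrix.mul_apply]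
  have h0 : ∀ y, Pm K d y z = if y = rv d z then 1 else 0 := by
    intro y
    rw [Pm_apply']
    by_cases h : y = rv d z
    · rw [if_pos h, if_pos (by rw [h, rv_rv])]
    · rw [if_neg h, if_neg (fun h' => h (by rw [h', rv_rv]))]
  simp_rw [h0, mul_ite, mul_one, mul_zero]
  rw [Finset.sum_ite_eq']
  simp

theorem Pm_mul_Pm : Pm K d * Pm K d = 1 := by
  ext x z
  rw [Pm_mul_apply, Pm_apply', rv_rv, Matrix.one_apply]
  by_cases h : x = z
  · rw [if_pos h, if_pos h.symm]
  · rw [if_neg h, if_neg (fun h' => h h'.symm)]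

theorem NN_apply (x z : (k : Fin t) × Fin (d k)) :
    Cfsg.Agent.S2581.NN K d x z = if x.1 = z.1 ∧ (x.2 : ℕ) = (z.2 : ℕ) + 1 then 1 else 0 := by
  have := Cfsg.Agent.S2581.NN_pow_apply (F := K) d 1 x z
  rwa [pow_one] at this

theorem st_Pm {q : ℕ} (hq : q ≠ 0) : st q (Pm K d) = Pm K d := by
  ext x z
  rw [st_apply, Pm_apply', Pm_apply']
  by_cases h : x = rv d z
  · rw [if_pos h, if_pos (by rw [h, rv_rv]), one_pow]
  · rw [if_neg h, if_neg (fun h' => h (by rw [h', rv_rv])), zero_pow hq]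

theorem st_NN {q : ℕ} (hq : q ≠ 0) :
    st q (Cfsg.Agent.S2581.NN K d) = Pm K d * Cfsg.Agent.S2581.NN K d * Pm K d := by
  ext x z
  rw [st_apply, mul_Pm_apply, Pm_mul_apply, NN_apply, NN_apply]
  obtain ⟨k, i⟩ := x
  obtain ⟨l, j⟩ := z
  by_cases h : l = k
  · subst h
    have h1 : ((j : ℕ) = (i : ℕ) + 1) ↔ ((Fin.rev i : ℕ) = (Fin.rev j : ℕ) + 1) := by
      rw [Fin.val_rev, Fin.val_rev]
      have := i.2
      have := j.2
      omega
    by_cases h2 : (j : ℕ) = (i : ℕ) + 1
    · rw [if_pos ⟨rfl, h2⟩, one_pow]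
      exact (if_pos ⟨rfl, h1.mp h2⟩).symm
    · rw [if_neg (fun hh => h2 hh.2), zero_pow hq]
      exact (if_neg (fun hh => h2 (h1.mpr hh.2))).symm
  · rw [if_neg (fun hh => h hh.1), zero_pow hq]
    exact (if_neg (fun hh => h hh.1.symm)).symm

end perm

theorem comm_inv {R : Type*} [Ring R] {x b bi : R} (h : Commute x b) (h1 : b * bi = 1)
    (h2 : bi * b = 1) : Commute x bi := by
  show x * bi = bi * x
  calc x * bi = bi * b * (x * bi) := by rw [h2, one_mul]
    _ = bi * (b * x) * bi := by noncomm_ring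
    _ = bi * (x * b) * bi := by rw [h.eq]
    _ = bi * x * (b * bi) := by noncomm_ring
    _ = bi * x := by rw [h1, mul_one]

theorem model_count {K : Type*} [Field K] [Fintype K] {q : ℕ} (hK : Fintype.card K = q ^ 2)
    {t : ℕ} (d : Fin t → ℕ)
    (hconj : ∀ M M' : Matrix ((k : Fin t) × Fin (d k)) ((k : Fin t) × Fin (d k)) K,
      IsConj M M' →
      Nat.card {H : Matrix ((k : Fin t) × Fin (d k)) ((k : Fin t) × Fin (d k)) K //
          (H.map (· ^ q))ᵀ = H ∧ H.det ≠ 0 ∧ (M.map (· ^ q))ᵀ * H * M = H} =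
      Nat.card {H : Matrix ((k : Fin t) × Fin (d k)) ((k : Fin t) × Fin (d k)) K //
          (H.map (· ^ q))ᵀ = H ∧ H.det ≠ 0 ∧ (M'.map (· ^ q))ᵀ * H * M' = H}) :
    Nat.card {H : Matrix ((k : Fin t) × Fin (d k)) ((k : Fin t) × Fin (d k)) K //
        (H.map (· ^ q))ᵀ = H ∧ H.det ≠ 0 ∧
        ((Cfsg.jordanTypeMatrix d K).map (· ^ q))ᵀ * H * Cfsg.jordanTypeMatrix d K = H} =
    Nat.card {X : Matrix ((k : Fin t) × Fin (d k)) ((k : Fin t) × Fin (d k)) K //
        X * Cfsg.Agent.S2581.NN K d = Cfsg.Agent.S2581.NN K d * X ∧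
        Pm K d * (X.map (· ^ q))ᵀ * Pm K d = X ∧ X.det ≠ 0} := by
  classical
  have hq0 := q_ne_zero hK
  have hPP : Pm K d * Pm K d = 1 := Pm_mul_Pm d
  have hstP : st q (Pm K d) = Pm K d := st_Pm d hq0
  have hstN : st q (Cfsg.Agent.S2581.NN K d) = Pm K d * Cfsg.Agent.S2581.NN K d * Pm K d :=
    st_NN d hq0
  have hNnil : IsNilpotent (Cfsg.Agent.S2581.NN K d) := Cfsg.Agent.Lib.Helper51.JType.bd_nil d
  have hJ1 : Cfsg.jordanTypeMatrix d K - 1 = Cfsg.Agent.S2581.NN K d :=
    Cfsg.Agent.Lib.Helper51.JType.jordanType_sub_one d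
  generalize Cfsg.Agent.S2581.NN K d = N at *
  generalize Pm K d = P at *
  obtain ⟨lam, hlam⟩ := exists_pow_ne hK
  obtain ⟨mu, hmu⟩ : ∃ mu : K, mu = lam ^ q := ⟨_, rfl⟩
  have hmulam : mu ^ q = lam := by rw [hmu]; exact pow_pow_q hK lam
  have hlm : lam - mu ≠ 0 := by
    rw [hmu]
    exact sub_ne_zero.mpr (Ne.symm hlam)
  have hmu0 : mu ≠ 0 := by
    rintro rfl
    rw [zero_pow hq0] at hmulam
    rw [← hmulam, zero_pow hq0] at hlam
    exact hlam rfl
  obtain ⟨A, hA⟩ : ∃ A : Matrix ((k : Fin t) × Fin (d k)) ((k : Fin t) × Fin (d k)) K,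
    A = 1 + lam • N := ⟨_, rfl⟩
  obtain ⟨B, hB⟩ : ∃ B : Matrix ((k : Fin t) × Fin (d k)) ((k : Fin t) × Fin (d k)) K,
    B = 1 + mu • N := ⟨_, rfl⟩
  have hAu : IsUnit A := by rw [hA]; exact (hNnil.smul lam).isUnit_one_add
  have hBu : IsUnit B := by rw [hB]; exact (hNnil.smul mu).isUnit_one_add
  obtain ⟨Ai, hAi1, hAi2⟩ : ∃ Ai, A * Ai = 1 ∧ Ai * A = 1 := by
    obtain ⟨u, hu⟩ := hAu
    exact ⟨↑u⁻¹, by rw [← hu]; simp, by rw [← hu]; simp⟩
  obtain ⟨Bi, hBi1, hBi2⟩ : ∃ Bi, B * Bi = 1 ∧ Bi * B = 1 := by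
    obtain ⟨u, hu⟩ := hBu
    exact ⟨↑u⁻¹, by rw [← hu]; simp, by rw [← hu]; simp⟩
  have cNA : Commute N A := by
    rw [hA]; exact (Commute.one_right N).add_right ((Commute.refl N).smul_right lam)
  have cNB : Commute N B := by
    rw [hB]; exact (Commute.one_right N).add_right ((Commute.refl N).smul_right mu)
  have cAB : Commute A B := by
    rw [hA]; exact (Commute.one_left B).add_left (cNB.smul_left lam)
  have cNBi : Commute N Bi := comm_inv cNB hBi1 hBi2
  have cABi : Commute A Bi := comm_inv cAB hBi1 hBi2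
  have cBAi : Commute B Ai := comm_inv cAB.symm hAi1 hAi2
  have cAiBi : Commute Ai Bi := comm_inv cBAi.symm hBi1 hBi2
  -- the model element and its inverse
  obtain ⟨u, hu⟩ : ∃ u : Matrix ((k : Fin t) × Fin (d k)) ((k : Fin t) × Fin (d k)) K,
    u = A * Bi := ⟨_, rfl⟩
  obtain ⟨ui, hui⟩ : ∃ ui : Matrix ((k : Fin t) × Fin (d k)) ((k : Fin t) × Fin (d k)) K,
    ui = B * Ai := ⟨_, rfl⟩
  have huui : u * ui = 1 := by
    rw [hu, hui]
    calc A * Bi * (B * Ai) = A * (Bi * B) * Ai := by noncomm_ring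
      _ = 1 := by rw [hBi2, mul_one, hAi1]
  have huiu : ui * u = 1 := by
    rw [hu, hui]
    calc B * Ai * (A * Bi) = B * (Ai * A) * Bi := by noncomm_ring
      _ = 1 := by rw [hAi2, mul_one, hBi1]
  have hPP' : ∀ M : Matrix ((k : Fin t) × Fin (d k)) ((k : Fin t) × Fin (d k)) K,
      P * (P * M) = M := fun M => by rw [← mul_assoc, hPP, one_mul]
  have huui' : ∀ M : Matrix ((k : Fin t) × Fin (d k)) ((k : Fin t) × Fin (d k)) K,
      u * (ui * M) = M := fun M => by rw [← mul_assoc, huui, one_mul]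
  have huiu' : ∀ M : Matrix ((k : Fin t) × Fin (d k)) ((k : Fin t) × Fin (d k)) K,
      ui * (u * M) = M := fun M => by rw [← mul_assoc, huiu, one_mul]
  -- conjugate transposes
  have stA : st q A = P * B * P := by
    rw [hA, hB, st_add hK, st_one hK, st_smul, hstN, ← hmu, Matrix.mul_add, Matrix.add_mul,
      Matrix.mul_one, hPP, Matrix.mul_smul, Matrix.smul_mul]
  have stB : st q B = P * A * P := by
    rw [hA, hB, st_add hK, st_one hK, st_smul, hstN, hmulam, Matrix.mul_add, Matrix.add_mul,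
      Matrix.mul_one, hPP, Matrix.mul_smul, Matrix.smul_mul]
  have hinvPAP : P * A * P * (P * Ai * P) = 1 := by
    calc P * A * P * (P * Ai * P) = P * A * (P * P) * Ai * P := by noncomm_ring
      _ = P * (A * Ai) * P := by rw [hPP]; noncomm_ring
      _ = 1 := by rw [hAi1, mul_one, hPP]
  have stBi : st q Bi = P * Ai * P := by
    calc st q Bi = st q Bi * (P * A * P * (P * Ai * P)) := by rw [hinvPAP, mul_one]
      _ = (st q Bi * st q B) * (P * Ai * P) := by rw [stB]; noncomm_ring
      _ = P * Ai * P := by rw [← st_mul hK, hBi1, st_one hK, one_mul]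
  have stu : st q u = P * ui * P := by
    rw [hu, hui, st_mul hK, stBi, stA]
    calc P * Ai * P * (P * B * P) = P * Ai * (P * P) * B * P := by noncomm_ring
      _ = P * (Ai * B) * P := by rw [hPP]; noncomm_ring
      _ = P * (B * Ai) * P := by rw [cBAi.eq]
  -- `u - 1` is a unit multiple of `N`
  have hu1 : u - 1 = ((lam - mu) • Bi) * N := by
    have h1 : u - 1 = (A - B) * Bi := by rw [sub_mul, hBi1, hu]
    have h2 : A - B = (lam - mu) • N := by rw [hA, hB, sub_smul]; abel
    rw [h1, h2, Matrix.smul_mul, Matrix.smul_mul, cNBi.eq]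
  have hUunit : IsUnit ((lam - mu) • Bi) := by
    refine IsUnit.of_mul_eq_one ((lam - mu)⁻¹ • B) ?_
    rw [Matrix.smul_mul, Matrix.mul_smul, smul_smul, hBi2, mul_inv_cancel₀ hlm, one_smul]
  have hUc : Commute ((lam - mu) • Bi) N := (cNBi.symm).smul_left _
  have hconjJu : IsConj (Cfsg.jordanTypeMatrix d K) u := by
    apply Cfsg.Agent.Lib.Helper51.JType.isConj_of_kap'
    · rw [hJ1]; exact hNnil
    · rw [hu1]; exact Commute.isNilpotent_mul_left hUc hNnil
    · intro j
      rw [hJ1, hu1]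
      have e : ∀ M : Matrix ((k : Fin t) × Fin (d k)) ((k : Fin t) × Fin (d k)) K,
          Matrix.toLin' M = Matrix.toLinAlgEquiv' M := fun M => rfl
      rw [e, e, map_mul]
      exact (Cfsg.Agent.Lib.Helper51.JType.kap_unit_mul _ _ (hUunit.map _) (hUc.map _) j).symm
  -- commuting with `u` is commuting with `N`
  have comm_iff : ∀ X : Matrix ((k : Fin t) × Fin (d k)) ((k : Fin t) × Fin (d k)) K,
      X * u = u * X ↔ X * N = N * X := by
    intro X
    constructor
    · intro h
      have hc : Commute X u := h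
      have hBi' : Bi = (lam - mu)⁻¹ • (lam • (1 : Matrix _ _ K) - mu • u) := by
        have h1 : lam • (1 : Matrix _ _ K) - mu • u = (lam • B - mu • A) * Bi := by
          rw [sub_mul, Matrix.smul_mul, Matrix.smul_mul, hBi1, hu]
        have h2 : lam • B - mu • A = (lam - mu) • (1 : Matrix _ _ K) := by
          rw [hA, hB, smul_add, smul_add, smul_smul, smul_smul, mul_comm lam mu, sub_smul]
          abel
        rw [h1, h2, Matrix.smul_mul, one_mul, smul_smul, inv_mul_cancel₀ hlm, one_smul]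
      have hcBi : Commute X Bi := by
        rw [hBi']
        exact (((Commute.one_right X).smul_right lam).sub_right (hc.smul_right mu)).smul_right _
      have hcB : Commute X B := comm_inv hcBi hBi2 hBi1
      have hN' : N = mu⁻¹ • (B - 1) := by
        rw [hB, add_sub_cancel_left, smul_smul, inv_mul_cancel₀ hmu0, one_smul]
      have hcN : Commute X N := by
        rw [hN']
        exact (hcB.sub_right (Commute.one_right X)).smul_right _
      exact hcN
    · intro h
      have hc : Commute X N := h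
      have hcA : Commute X A := by
        rw [hA]; exact (Commute.one_right X).add_right (hc.smul_right lam)
      have hcB : Commute X B := by
        rw [hB]; exact (Commute.one_right X).add_right (hc.smul_right mu)
      have hcBi : Commute X Bi := comm_inv hcB hBi1 hBi2
      rw [hu]
      exact hcA.mul_right hcBi
  have hdetP : P.det ≠ 0 := by
    intro h0
    have := congrArg Matrix.det hPP
    rw [Matrix.det_mul, h0, Matrix.det_one, mul_zero] at this
    exact zero_ne_one this
  rw [hconj _ u hconjJu]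
  apply Nat.card_congr
  let e : Matrix ((k : Fin t) × Fin (d k)) ((k : Fin t) × Fin (d k)) K ≃
      Matrix ((k : Fin t) × Fin (d k)) ((k : Fin t) × Fin (d k)) K :=
    ⟨fun H => P * H, fun X => P * X, fun H => hPP' H, fun X => hPP' X⟩
  refine Equiv.subtypeEquiv e ?_
  intro H
  show (st q H = H ∧ H.det ≠ 0 ∧ st q u * H * u = H) ↔
    ((P * H) * N = N * (P * H) ∧ P * st q (P * H) * P = P * H ∧ (P * H).det ≠ 0)
  have ha : st q H = H ↔ P * st q (P * H) * P = P * H := by
    have h1 : P * st q (P * H) * P = P * st q H := by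
      rw [st_mul hK, hstP]
      calc P * (st q H * P) * P = P * st q H * (P * P) := by noncomm_ring
        _ = P * st q H := by rw [hPP, mul_one]
    rw [h1]
    constructor
    · intro h; rw [h]
    · intro h
      have := congrArg (fun M => P * M) h
      simpa only [hPP'] using this
  have hb : H.det ≠ 0 ↔ (P * H).det ≠ 0 := by
    rw [Matrix.det_mul]
    exact ⟨fun h => mul_ne_zero hdetP h, fun h => right_ne_zero_of_mul h⟩
  have hc : st q u * H * u = H ↔ (P * H) * N = N * (P * H) := by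
    rw [← comm_iff, stu]
    constructor
    · intro h
      have := congrArg (fun M => u * (P * M)) h
      simp only [mul_assoc, hPP', huui'] at this
      rw [mul_assoc, this]
    · intro h
      have := congrArg (fun M => P * (ui * M)) h
      simp only [mul_assoc, huiu'] at this
      have h2 : P * ui * P * H * u = P * (ui * (P * (H * u))) := by simp only [mul_assoc]
      rw [h2, this, hPP']
  rw [ha, hb, hc]
  tauto

end Cfsg.Agent.Lib.Helper84.GUCMODEL
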