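import Mathlib
import Cfsg.Prelude.Def_GeometricClasses
import Cfsg.Agent.Lib.Helper71.SpK1

/-!
# S5664, piece J9 (helper84 for helper71): torus conjugation

From Siegel elements on a hyperplane `D` of an `L`-line to Siegel elements on the whole line,
when `[L : F] ≥ 3`.
-/

set_option autoImplicit false

namespace Cfsg.Agent.Lib.Helper84.SpJ9

open Matrix Cfsg.Agent.Lib.Helper71.SpK Cfsg.Agent.Lib.Helper97

variable {ι : Type} [Fintype ι] [DecidableEq ι] {F : Type*} [Field F]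

variable {f : (ι → F) → (ι → F) → F} {L : Type*} [Field L] [Algebra F L]

theorem SP_all_of_hyperplane (S : KS f L) (hf : Cfsg.Geo.IsSymplecticForm f)
    [FiniteDimensional F L]
    (hr3 : 3 ≤ Module.finrank F L)
    (M : Subgroup (GL ι F)) (hNM : S.NG ≤ M) {u : ι → F} (hu : u ≠ 0)
    (D : Submodule F (ι → F)) (hDle : D ≤ S.line u)
    (hDrank : Module.finrank F ↥D + 1 = Module.finrank F L) {τ : F}
    (hSP : ∀ d₁ ∈ D, ∀ d₂ ∈ D, SP f M τ d₁ d₂) :
    ∀ y ∈ S.line u, ∀ y' ∈ S.line u, SP f M τ y y' := by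
  intro y hy y' hy'
  have hlinefin : Module.finrank F ↥(S.line u) = Module.finrank F L := S.finrank_line hu
  -- `D` is a proper subspace of the line
  have hDne : D ≠ S.line u := by
    intro h
    rw [h, hlinefin] at hDrank
    omega
  obtain ⟨y₀, hy₀, hy₀D⟩ : ∃ y₀ ∈ S.line u, y₀ ∉ D := by
    by_contra hcon
    push Not at hcon
    exact hDne (le_antisymm hDle hcon)
  obtain ⟨ν, hνy₀, hDν⟩ := Submodule.exists_le_ker_of_notMem hy₀D
  -- `D = ker ν ⊓ line u`
  have hD' : D = LinearMap.ker ν ⊓ S.line u := by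
    apply Submodule.eq_of_le_of_finrank_le (le_inf hDν hDle)
    have hlt : LinearMap.ker ν ⊓ S.line u < S.line u := by
      refine lt_of_le_of_ne inf_le_right ?_
      intro h
      have : y₀ ∈ LinearMap.ker ν ⊓ S.line u := by rw [h]; exact hy₀
      exact hνy₀ (LinearMap.mem_ker.mp this.1)
    have := Submodule.finrank_lt_finrank_of_lt hlt
    omega
  -- the functional on `L`
  obtain ⟨c, hc⟩ := S.β_repr (ν.comp (S.actL u))
  have hcD : ∀ k : L, S.β (c * k) = 0 → S.φ k *ᵥ u ∈ D := by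
    intro k hk
    rw [hD']
    refine ⟨?_, S.act_mem_line k u⟩
    have := hc k
    rw [hk] at this
    exact LinearMap.mem_ker.mpr this
  have hc0 : c ≠ 0 := by
    rintro rfl
    obtain ⟨k₀, rfl⟩ := S.mem_line.mp hy₀
    apply hνy₀
    have := hc k₀
    rw [zero_mul, map_zero] at this
    exact this
  obtain ⟨k, rfl⟩ := S.mem_line.mp hy
  obtain ⟨k', rfl⟩ := S.mem_line.mp hy'
  -- a common "annihilator"
  let ψ : L →ₗ[F] F × F :=
    LinearMap.prod (S.β.comp (LinearMap.mulRight F k)) (S.β.comp (LinearMap.mulRight F k'))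
  have hψ : LinearMap.ker ψ ≠ ⊥ := by
    apply LinearMap.ker_ne_bot_of_finrank_lt
    rw [Module.finrank_prod, Module.finrank_self]
    omega
  obtain ⟨c', hc'mem, hc'0⟩ := (Submodule.ne_bot_iff _).mp hψ
  have hc'k : S.β (c' * k) = 0 := by
    have := LinearMap.mem_ker.mp hc'mem
    exact congrArg Prod.fst this
  have hc'k' : S.β (c' * k') = 0 := by
    have := LinearMap.mem_ker.mp hc'mem
    exact congrArg Prod.snd this
  have hκ : c * c'⁻¹ ≠ 0 := mul_ne_zero hc0 (inv_ne_zero hc'0)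
  have hd₁ : S.φ ((c * c'⁻¹)⁻¹ * k) *ᵥ u ∈ D := by
    apply hcD
    have : c * ((c * c'⁻¹)⁻¹ * k) = c' * k := by
      field_simp
    rw [this, hc'k]
  have hd₂ : S.φ ((c * c'⁻¹)⁻¹ * k') *ᵥ u ∈ D := by
    apply hcD
    have : c * ((c * c'⁻¹)⁻¹ * k') = c' * k' := by
      field_simp
    rw [this, hc'k']
  obtain ⟨n, hn, hnu⟩ := S.exists_NG_torus hf hu hκ
  have key := SP_conj (hSP _ hd₁ _ hd₂) (hNM hn) (S.NG_f hn)
  have e1 : (n : Matrix ι ι F) *ᵥ (S.φ ((c * c'⁻¹)⁻¹ * k) *ᵥ u) = S.φ k *ᵥ u := by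
    rw [S.NG_act hn, hnu, ← S.φ_mul_mulVec]
    congr 2
    field_simp
  have e2 : (n : Matrix ι ι F) *ᵥ (S.φ ((c * c'⁻¹)⁻¹ * k') *ᵥ u) = S.φ k' *ᵥ u := by
    rw [S.NG_act hn, hnu, ← S.φ_mul_mulVec]
    congr 2
    field_simp
  rw [e1, e2] at key
  exact key

end Cfsg.Agent.Lib.Helper84.SpJ9
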