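import Mathlib
import Cfsg.Agent.Lib.Helper44.ESDefs

/-!
# S5877 piece ES-INTER (helper84): the eigenspace `W` of `g` and `x⁻¹ W`
-/

set_option autoImplicit false

namespace Cfsg.Agent.Lib.Helper44.ES

section

variable {n : ℕ} {F : Type*} [Field F]

private theorem esinter_mul (a b : Matrix.GeneralLinearGroup (Fin n) F) (w : Fin n → F) :
    ((a * b : Matrix.GeneralLinearGroup (Fin n) F) : Matrix (Fin n) (Fin n) F).mulVec w =
      (a : Matrix (Fin n) (Fin n) F).mulVec ((b : Matrix (Fin n) (Fin n) F).mulVec w) := by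
  rw [Matrix.mulVec_mulVec]
  rfl

private theorem esinter_one (w : Fin n → F) :
    ((1 : Matrix.GeneralLinearGroup (Fin n) F) : Matrix (Fin n) (Fin n) F).mulVec w = w := by
  rw [Units.val_one, Matrix.one_mulVec]

private theorem esinter_inv_act (a : Matrix.GeneralLinearGroup (Fin n) F) (w : Fin n → F) :
    ((a⁻¹ : Matrix.GeneralLinearGroup (Fin n) F) : Matrix (Fin n) (Fin n) F).mulVec
      ((a : Matrix (Fin n) (Fin n) F).mulVec w) = w := by
  rw [← esinter_mul, inv_mul_cancel, esinter_one]

private theorem esinter_pow (g : Matrix.GeneralLinearGroup (Fin n) F) (c : F) (w : Fin n → F)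
    (h : (g : Matrix (Fin n) (Fin n) F).mulVec w = c • w) (j : ℕ) :
    ((g ^ j : Matrix.GeneralLinearGroup (Fin n) F) : Matrix (Fin n) (Fin n) F).mulVec w
      = c ^ j • w := by
  induction j with
  | zero => rw [pow_zero, esinter_one, pow_zero, one_smul]
  | succ j ih =>
    rw [pow_succ, esinter_mul, h, Matrix.mulVec_smul, ih, smul_smul, pow_succ, mul_comm]

private theorem esinter_pow_inv (g : Matrix.GeneralLinearGroup (Fin n) F) (c : F) (hc : c ≠ 0)
    (w : Fin n → F) (h : (g : Matrix (Fin n) (Fin n) F).mulVec w = c • w) (j : ℕ) :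
    (((g ^ j)⁻¹ : Matrix.GeneralLinearGroup (Fin n) F) : Matrix (Fin n) (Fin n) F).mulVec w
      = (c ^ j)⁻¹ • w := by
  have h1 := esinter_pow g c w h j
  have h2 := esinter_inv_act (g ^ j) w
  rw [h1, Matrix.mulVec_smul] at h2
  calc (((g ^ j)⁻¹ : Matrix.GeneralLinearGroup (Fin n) F) : Matrix (Fin n) (Fin n) F).mulVec w
      = (c ^ j)⁻¹ • (c ^ j • (((g ^ j)⁻¹ : Matrix.GeneralLinearGroup (Fin n) F) :
          Matrix (Fin n) (Fin n) F).mulVec w) := by
        rw [smul_smul, inv_mul_cancel₀ (pow_ne_zero j hc), one_smul]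
    _ = (c ^ j)⁻¹ • w := by rw [h2]

private theorem esinter_fix (g x : Matrix.GeneralLinearGroup (Fin n) F) (c : F) (hc : c ≠ 0)
    (w : Fin n → F) (h1 : (g : Matrix (Fin n) (Fin n) F).mulVec w = c • w)
    (h2 : (g : Matrix (Fin n) (Fin n) F).mulVec ((x : Matrix (Fin n) (Fin n) F).mulVec w)
      = c • (x : Matrix (Fin n) (Fin n) F).mulVec w) (j : ℕ) :
    ((hh g x j : Matrix.GeneralLinearGroup (Fin n) F) : Matrix (Fin n) (Fin n) F).mulVec w = w := by
  unfold hh
  rw [esinter_mul, esinter_mul, esinter_mul, esinter_pow_inv g c hc w h1 j, Matrix.mulVec_smul,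
    Matrix.mulVec_smul, esinter_pow g c _ h2 j, smul_smul, inv_mul_cancel₀ (pow_ne_zero j hc),
    one_smul, esinter_inv_act]

/-- the common part: `2 dim W ≤ n + dim (W ⊓ x⁻¹ W)` and `W ⊓ x⁻¹ W` is fixed by all `hh g x j` -/
private theorem esinter_core (g x : Matrix.GeneralLinearGroup (Fin n) F) (c : F) :
    ∃ U : Submodule F (Fin n → F),
      2 * Module.finrank F (Module.End.eigenspace
        (Matrix.toLin' (g : Matrix (Fin n) (Fin n) F)) c) ≤ n + Module.finrank F U ∧
      ∀ w ∈ U, ∀ j : ℕ,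
        ((hh g x j : Matrix.GeneralLinearGroup (Fin n) F) : Matrix (Fin n) (Fin n) F).mulVec w
          = w := by
  by_cases hc : c = 0
  · refine ⟨⊥, ?_, ?_⟩
    · have hW : Module.End.eigenspace (Matrix.toLin' (g : Matrix (Fin n) (Fin n) F)) c = ⊥ := by
        rw [eq_bot_iff]
        intro w hw
        rw [Module.End.mem_eigenspace_iff, Matrix.toLin'_apply, hc, zero_smul] at hw
        have := esinter_inv_act g w
        rw [hw, Matrix.mulVec_zero] at this
        rw [Submodule.mem_bot]
        exact this.symm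
      rw [hW, finrank_bot]
      omega
    · intro w hw j
      rw [Submodule.mem_bot] at hw
      rw [hw, Matrix.mulVec_zero]
  · let e : (Fin n → F) ≃ₗ[F] (Fin n → F) :=
      Matrix.toLin'OfInv (M := ((x⁻¹ : Matrix.GeneralLinearGroup (Fin n) F) :
          Matrix (Fin n) (Fin n) F)) (M' := (x : Matrix (Fin n) (Fin n) F))
        (by rw [← Units.val_mul, inv_mul_cancel, Units.val_one])
        (by rw [← Units.val_mul, mul_inv_cancel, Units.val_one])
    have he : ∀ v : Fin n → F, e v = (x : Matrix (Fin n) (Fin n) F).mulVec v := fun v => rfl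
    obtain ⟨W, hW⟩ : ∃ W : Submodule F (Fin n → F),
        W = Module.End.eigenspace (Matrix.toLin' (g : Matrix (Fin n) (Fin n) F)) c := ⟨_, rfl⟩
    have hWmem : ∀ w : Fin n → F, w ∈ W ↔ (g : Matrix (Fin n) (Fin n) F).mulVec w = c • w := by
      intro w
      rw [hW, Module.End.mem_eigenspace_iff, Matrix.toLin'_apply]
    let W' : Submodule F (Fin n → F) := W.comap (e : (Fin n → F) →ₗ[F] (Fin n → F))
    have hdim : Module.finrank F W' = Module.finrank F W := by
      show Module.finrank F (W.comap (e : (Fin n → F) →ₗ[F] (Fin n → F))) = _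
      rw [Submodule.comap_equiv_eq_map_symm]
      exact LinearEquiv.finrank_map_eq e.symm W
    refine ⟨W ⊓ W', ?_, ?_⟩
    · have h1 := Submodule.finrank_sup_add_finrank_inf_eq W W'
      have h2 : Module.finrank F (W ⊔ W' : Submodule F (Fin n → F)) ≤ n := by
        have := Submodule.finrank_le (W ⊔ W')
        rw [Module.finrank_fin_fun] at this
        exact this
      rw [← hW]
      omega
    · intro w hw j
      have hw1 : w ∈ W := hw.1
      have hw2 : e w ∈ W := hw.2
      rw [hWmem] at hw1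
      rw [hWmem, he] at hw2
      exact esinter_fix g x c hc w hw1 hw2 j

end

theorem es_inter0 {n : ℕ} {F : Type*} [Field F] (g x : Matrix.GeneralLinearGroup (Fin n) F) (c : F) (j k : ℕ)
    (ε : F) (hε : ε ≠ 1)
    (h : ((hh g x j : Matrix.GeneralLinearGroup (Fin n) F) : Matrix (Fin n) (Fin n) F)
        * ((hh g x k : Matrix.GeneralLinearGroup (Fin n) F) : Matrix (Fin n) (Fin n) F)
      = ε • (((hh g x k : Matrix.GeneralLinearGroup (Fin n) F) : Matrix (Fin n) (Fin n) F)
        * ((hh g x j : Matrix.GeneralLinearGroup (Fin n) F) : Matrix (Fin n) (Fin n) F))) :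
    2 * Module.finrank F (Module.End.eigenspace (Matrix.toLin' (g : Matrix (Fin n) (Fin n) F)) c) ≤ n := by
  obtain ⟨U, hU1, hU2⟩ := esinter_core g x c
  have hbot : U = ⊥ := by
    rw [eq_bot_iff]
    intro w hw
    rw [Submodule.mem_bot]
    have hj := hU2 w hw j
    have hk := hU2 w hw k
    have h1 : (((hh g x j : Matrix.GeneralLinearGroup (Fin n) F) : Matrix (Fin n) (Fin n) F)
        * ((hh g x k : Matrix.GeneralLinearGroup (Fin n) F) : Matrix (Fin n) (Fin n) F)).mulVec w
      = (ε • (((hh g x k : Matrix.GeneralLinearGroup (Fin n) F) : Matrix (Fin n) (Fin n) F)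
        * ((hh g x j : Matrix.GeneralLinearGroup (Fin n) F) : Matrix (Fin n) (Fin n) F))).mulVec w := by
      rw [h]
    rw [← Matrix.mulVec_mulVec, hk, hj, Matrix.smul_mulVec, ← Matrix.mulVec_mulVec, hj, hk] at h1
    have h2 : (1 - ε) • w = 0 := by
      rw [sub_smul, one_smul]
      nth_rewrite 1 [h1]
      exact sub_self _
    rcases smul_eq_zero.mp h2 with h3 | h3
    · exact absurd (sub_eq_zero.mp h3).symm hε
    · exact h3
  rw [hbot, finrank_bot] at hU1
  omega

theorem es_inter1 {n : ℕ} {F : Type*} [Field F] (g x : Matrix.GeneralLinearGroup (Fin n) F) (c : F) :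
    2 * Module.finrank F (Module.End.eigenspace (Matrix.toLin' (g : Matrix (Fin n) (Fin n) F)) c)
      ≤ n + Module.finrank F (Module.End.eigenspace
          (Matrix.toLin' ((hh g x 1 : Matrix.GeneralLinearGroup (Fin n) F) : Matrix (Fin n) (Fin n) F)) 1) := by
  obtain ⟨U, hU1, hU2⟩ := esinter_core g x c
  have hle : U ≤ Module.End.eigenspace
      (Matrix.toLin' ((hh g x 1 : Matrix.GeneralLinearGroup (Fin n) F) :
        Matrix (Fin n) (Fin n) F)) 1 := by
    intro w hw
    rw [Module.End.mem_eigenspace_iff, Matrix.toLin'_apply, one_smul]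
    exact hU2 w hw 1
  have := Submodule.finrank_mono hle
  omega

end Cfsg.Agent.Lib.Helper44.ES
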