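import Mathlib
import Cfsg.Agent.Lib.Helper92.FT12Defs

/-!
# S1421 (B&G Theorem 12.12), piece PARTB (helper84): assembly of part (b)
-/

set_option autoImplicit false

namespace Cfsg.Agent.Lib.Helper84.FT12

open Cfsg Cfsg.Agent.Lib.Helper92.FT

universe u

theorem cent_le_cent_pow {G : Type u} [Group G] (e : G) (k : ℕ) :
    Subgroup.centralizer ({e} : Set G) ≤ Subgroup.centralizer ({e ^ k} : Set G) := by
  intro g hg
  rw [Subgroup.mem_centralizer_iff] at hg ⊢
  intro h hh
  rw [Set.mem_singleton_iff] at hh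
  subst hh
  have hc : Commute e g := hg e (Set.mem_singleton e)
  exact (hc.pow_left k).eq

theorem partB_of (ht : TauStmt.{u}) (ha : EpAStmt.{u}) (hn : EpNStmt.{u}) (hi : InterStmt.{u}) :
    PartBStmt.{u} := by
  intro G _ _ hG M E hyp
  classical
  obtain ⟨ht1, ht2, ht3⟩ := ht G hG M E hyp.hM hyp.hE
  by_cases h0 : sigmaCore M = ⊥
  · exact ⟨E, le_rfl, rfl, fun e _ _ => by rw [h0, bot_inf_eq]⟩
  have hex : ∀ p ∈ tau2 M, ∃ Ep : Subgroup G, Adapted M E p Ep := by
    intro p hp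
    have : Fact p.Prime := ⟨hp.1⟩
    obtain ⟨A, hA⟩ := ht2 p hp
    by_cases hS : ∃ S : Sylow p G, IsMulCommutative (S : Subgroup G)
    · exact ha G hG M E hyp p A hA hS h0
    · exact hn G hG M E hyp p A hA (fun S hS' => hS ⟨S, hS'⟩) h0
  let Ep : ℕ → Subgroup G := fun p => if h : p ∈ tau2 M then Classical.choose (hex p h) else E
  have hEp : ∀ p (hp : p ∈ tau2 M), Adapted M E p (Ep p) := by
    intro p hp
    have h1 : Ep p = Classical.choose (hex p hp) := dif_pos hp
    rw [h1]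
    exact Classical.choose_spec (hex p hp)
  obtain ⟨E₀, hE₀E, hE₀Ep, hout, hin⟩ := hi G E (tau2 M) Ep (fun p hp => hp.1)
    (fun p hp => ⟨(hEp p hp).1, (hEp p hp).2.1⟩)
  refine ⟨E₀, hE₀E, ?_, ?_⟩
  · apply Nat.dvd_antisymm
    · exact Monoid.exponent_dvd_of_monoidHom (Subgroup.inclusion hE₀E)
        (Subgroup.inclusion_injective hE₀E)
    · apply Monoid.exponent_dvd_of_forall_pow_eq_one
      intro x
      obtain ⟨x, hx⟩ := x
      have hdvd : orderOf x ∣ Monoid.exponent E₀ := by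
        rw [Nat.dvd_iff_prime_pow_dvd_dvd]
        intro r k hr hrk
        have hx0 : orderOf x ≠ 0 := (orderOf_pos x).ne'
        have hx' : orderOf (x ^ (orderOf x / r ^ k)) = r ^ k := orderOf_pow_orderOf_div hx0 hrk
        have hx'E : x ^ (orderOf x / r ^ k) ∈ E := E.pow_mem hx _
        have key : ∃ y ∈ E₀, orderOf y = r ^ k := by
          by_cases hr2 : r ∈ tau2 M
          · obtain ⟨y₁, hy₁, hy₁max⟩ := (hEp r hr2).2.2.1
            have h1 : r ^ k ∣ orderOf y₁ := by
              rw [← hx']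
              exact hy₁max _ hx'E ⟨k, hx'⟩
            have hy0 : orderOf y₁ ≠ 0 := (orderOf_pos y₁).ne'
            have hy2 : orderOf (y₁ ^ (orderOf y₁ / r ^ k)) = r ^ k :=
              orderOf_pow_orderOf_div hy0 h1
            obtain ⟨y, hy, hyo⟩ := hin r hr2 _ ((Ep r).pow_mem hy₁ _) ⟨k, hy2⟩
            exact ⟨y, hy, hyo.trans hy2⟩
          · obtain ⟨y, hy, hyo⟩ := hout _ hx'E r hr hr2 ⟨k, hx'⟩
            exact ⟨y, hy, hyo.trans hx'⟩
        obtain ⟨y, hy, hyo⟩ := key
        rw [← hyo, ← Subgroup.orderOf_mk y hy]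
        exact Monoid.order_dvd_exponent _
      apply Subtype.ext
      rw [Subgroup.coe_pow, Subgroup.coe_one]
      exact orderOf_dvd_iff_pow_eq_one.1 hdvd
  · intro e he he1
    by_contra hfix
    have hfix' : Fix M e := hfix
    have heE : e ∈ E := hE₀E he
    have ho1 : orderOf e ≠ 1 := fun h => he1 (orderOf_eq_one_iff.1 h)
    obtain ⟨r, hr, hre⟩ := Nat.exists_prime_and_dvd ho1
    have hr2 : r ∈ tau2 M := ht3 hyp.h e heE hfix' r hr hre
    have hz : orderOf (e ^ (orderOf e / r)) = r :=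
      orderOf_pow_orderOf_div (orderOf_pos e).ne' hre
    have hzE : e ^ (orderOf e / r) ∈ Ep r := hE₀Ep r hr2 (E₀.pow_mem he _)
    apply (hEp r hr2).2.2.2 _ hzE hz
    intro hbot
    apply hfix
    rw [eq_bot_iff] at hbot ⊢
    exact le_trans (inf_le_inf_left _ (cent_le_cent_pow e _)) hbot

end Cfsg.Agent.Lib.Helper84.FT12
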