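import Mathlib
import Cfsg.Agent.Lib.Helper22.HPDefs
import Cfsg.Agent.Lib.Helper83.IrrBasic
import Cfsg.Agent.Lib.Helper83.Ortho
import Cfsg.Agent.Lib.Helper80.Twisted
import Cfsg.Agent.Lib.Helper14.HPSSCENTCARD
import Cfsg.Agent.Lib.Helper87.HPSSZORTH

/-!
# S4504, piece HP-STARSTAR (helper84): the budget (G4 of note 1792)

`hp_budget`: for `t ≠ 0`, the sum of `|φ (z ^ t)|²` over the irreducible characters `φ` with the
central character of `ψ` is `p`.
-/

set_option autoImplicit false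
set_option maxHeartbeats 400000

namespace Cfsg.Agent.Lib.Helper84.HPT

open Cfsg Cfsg.Agent.Lib.Helper22.BFD Cfsg.Agent.Lib.Helper22.HPD
open scoped ComplexConjugate

universe u

/-- No central element has order divisible by `p`. -/
theorem hp_nocent {G : Type u} [Group G] [Finite G] (p : ℕ) [Fact p.Prime]
    (hnn : ∀ H : Subgroup G, H.Normal → Nat.card H ≠ p) (u : G) (hu : u ∈ Subgroup.center G) :
    ¬ p ∣ orderOf u := by
  intro hdvd
  obtain ⟨m, hm⟩ := hdvd
  have h0 : 0 < orderOf u := orderOf_pos u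
  have hm0 : m ≠ 0 := by
    rintro rfl
    rw [mul_zero] at hm
    omega
  have hv : orderOf (u ^ m) = p := by
    rw [orderOf_pow_of_dvd hm0 (Dvd.intro_left p hm.symm), hm]
    exact Nat.mul_div_cancel _ (Nat.pos_of_ne_zero hm0)
  have hvc : u ^ m ∈ Subgroup.center G := Subgroup.pow_mem _ hu m
  have hle : Subgroup.zpowers (u ^ m) ≤ Subgroup.center G := by
    rw [Subgroup.zpowers_le]
    exact hvc
  have hN : (Subgroup.zpowers (u ^ m)).Normal := by
    refine ⟨fun n hn g => ?_⟩
    have h1 := Subgroup.mem_center_iff.mp (hle hn) g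
    rw [h1, mul_inv_cancel_right]
    exact hn
  exact hnn _ hN (by rw [Nat.card_zpowers, hv])

/-- A central translate of a power of `z` is conjugate to it only trivially. -/
theorem hp_cent_conj {G : Type u} [Group G] [Finite G] (p : ℕ) [Fact p.Prime]
    (hnn : ∀ H : Subgroup G, H.Normal → Nat.card H ≠ p) (z : G) (hz : z ^ p = 1) (m : ℕ)
    (u : G) (hu : u ∈ Subgroup.center G) (hc : IsConj (z ^ m * u) (z ^ m)) : u = 1 := by
  have hp : p.Prime := Fact.out
  obtain ⟨c, hc⟩ := isConj_iff.mp hc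
  have hzm : (z ^ m) ^ p = 1 := by rw [← pow_mul, mul_comm, pow_mul, hz, one_pow]
  have hcomm : Commute (z ^ m) u := Subgroup.mem_center_iff.mp hu (z ^ m)
  have h1 : (z ^ m * u) ^ p = u ^ p := by rw [hcomm.mul_pow, hzm, one_mul]
  have h2 : (z ^ m * u) ^ p = 1 := by
    have h3 : c * (z ^ m * u) ^ p * c⁻¹ = 1 := by rw [← conj_pow, hc, hzm]
    have h4 : (z ^ m * u) ^ p = c⁻¹ * (c * (z ^ m * u) ^ p * c⁻¹) * c := by group
    rw [h4, h3]; group
  have hup : u ^ p = 1 := h1 ▸ h2
  by_contra hne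
  have h5 : orderOf u = p := orderOf_eq_prime hup hne
  exact hp_nocent p hnn u hu (h5 ▸ dvd_rfl)

open Classical in
/-- The budget: for `t ≠ 0` the sum of `|φ (z ^ t)|²` over the irreducible characters with the
central character of `ψ` equals `p`. -/
theorem hp_budget {G : Type u} [Group G] [Fintype G] [Fintype (IrrCharacter G)]
    (p : ℕ) [Fact p.Prime] (hnn : ∀ H : Subgroup G, H.Normal → Nat.card H ≠ p)
    (χ : G → ℂ) (z : G) (ζ : ℂ) (hHP : HP p ζ z χ) (ψ : IrrCharacter G)
    (t : ZMod p) (ht : t ≠ 0) :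
    ∑ φ ∈ Finset.univ.filter (fun φ : IrrCharacter G => SameZ ψ.1 φ.1),
      φ.1 (z ^ t.val) * conj (φ.1 (z ^ t.val)) = (p : ℂ) := by
  have hzp : z ^ p = 1 := by rw [← hHP.hz]; exact pow_orderOf_eq_one z
  set w := z ^ t.val with hw
  have hcol : ∀ u : G, u ∈ Subgroup.center G →
      ∑ φ : IrrCharacter G, φ.1 w * conj (φ.1 (w * u)) =
        if u = 1 then (Nat.card (Subgroup.centralizer ({w} : Set G)) : ℂ) else 0 := by
    intro u hu
    rw [Cfsg.Agent.Lib.Helper83.column_orthogonality]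
    by_cases h1 : u = 1
    · subst h1
      rw [if_pos rfl, mul_one, if_pos (IsConj.refl w)]
    · rw [if_neg h1, if_neg]
      intro hc
      exact h1 (hp_cent_conj p hnn z hzp t.val u hu hc)
  have hA : ∑ u : G, (if u ∈ Subgroup.center G then
      Cfsg.Agent.Lib.Helper80.cc ψ u * ∑ φ : IrrCharacter G, φ.1 w * conj (φ.1 (w * u)) else 0) =
      (Nat.card (Subgroup.centralizer ({w} : Set G)) : ℂ) := by
    rw [Finset.sum_eq_single 1]
    · rw [if_pos (Subgroup.one_mem _), hcol 1 (Subgroup.one_mem _), if_pos rfl,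
        Cfsg.Agent.Lib.Helper80.cc_one, one_mul]
    · intro u _ hu1
      by_cases hu : u ∈ Subgroup.center G
      · rw [if_pos hu, hcol u hu, if_neg hu1, mul_zero]
      · rw [if_neg hu]
    · intro h
      exact absurd (Finset.mem_univ _) h
  have hB : ∑ u : G, (if u ∈ Subgroup.center G then
      Cfsg.Agent.Lib.Helper80.cc ψ u * ∑ φ : IrrCharacter G, φ.1 w * conj (φ.1 (w * u)) else 0) =
      (Nat.card (Subgroup.center G) : ℂ) *
        ∑ φ ∈ Finset.univ.filter (fun φ : IrrCharacter G => SameZ ψ.1 φ.1),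
          φ.1 w * conj (φ.1 w) := by
    have h1 : ∀ u : G, (if u ∈ Subgroup.center G then
        Cfsg.Agent.Lib.Helper80.cc ψ u * ∑ φ : IrrCharacter G, φ.1 w * conj (φ.1 (w * u)) else 0) =
        ∑ φ : IrrCharacter G, (φ.1 w * conj (φ.1 w)) * (if u ∈ Subgroup.center G then
          Cfsg.Agent.Lib.Helper80.cc ψ u * conj (Cfsg.Agent.Lib.Helper80.cc φ u) else 0) := by
      intro u
      by_cases hu : u ∈ Subgroup.center G
      · simp only [if_pos hu]
        rw [Finset.mul_sum]
        refine Finset.sum_congr rfl fun φ _ => ?_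
        rw [Cfsg.Agent.Lib.Helper80.irr_mul_central φ hu w, map_mul]
        ring
      · simp only [if_neg hu, mul_zero, Finset.sum_const_zero]
    simp_rw [h1]
    rw [Finset.sum_comm]
    simp_rw [← Finset.mul_sum, Cfsg.Agent.Lib.Helper87.HPT.hp_zorth ψ]
    rw [Finset.mul_sum, Finset.sum_filter]
    refine Finset.sum_congr rfl fun φ _ => ?_
    split_ifs <;> ring
  have hcard := Cfsg.Agent.Lib.Helper14.HPT.hp_centcard p hnn χ z ζ hHP t ht
  have hZ0 : (Nat.card (Subgroup.center G) : ℂ) ≠ 0 := by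
    exact_mod_cast (Nat.card_pos (α := Subgroup.center G)).ne'
  have h3 := hA.symm.trans hB
  rw [← hw] at hcard
  rw [hcard] at h3
  push_cast at h3
  have h4 : (Nat.card (Subgroup.center G) : ℂ) * (p : ℂ) = (Nat.card (Subgroup.center G) : ℂ) *
      ∑ φ ∈ Finset.univ.filter (fun φ : IrrCharacter G => SameZ ψ.1 φ.1),
        φ.1 w * conj (φ.1 w) := by
    rw [← h3]; ring
  exact (mul_left_cancel₀ hZ0 h4).symm

end Cfsg.Agent.Lib.Helper84.HPT
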