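import Mathlib
import Cfsg.Agent.Lib.Helper22.HPDefs
import Cfsg.Agent.Lib.Helper22.HPDefs2
import Cfsg.Agent.Lib.Helper83.IrrBasic
import Cfsg.Agent.Lib.Helper82.PQ
import Cfsg.Agent.Lib.Helper31.HPETA
import Cfsg.Agent.Lib.Helper84.HPSSBUD
import Cfsg.Agent.Lib.Helper46.HPSSQUAD
import Cfsg.Agent.Lib.Helper60.HPSSEXACT

/-!
# S4504, piece HP-STARSTAR (helper84)

Among the irreducible characters with the central character of `χ`, only `χ` and its Galois twist
take different values at `z` and `z ^ k`.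
-/

set_option autoImplicit false
set_option maxHeartbeats 400000

namespace Cfsg.Agent.Lib.Helper84.HPT

open Cfsg Cfsg.Agent.Lib.Helper22.BFD Cfsg.Agent.Lib.Helper22.HPD
open scoped ComplexConjugate

universe u

/-- The share of `φ` in the budget. -/
noncomputable def shareB {G : Type u} [Group G] (p : ℕ) [Fact p.Prime] (z : G) (φ : G → ℂ) : ℝ :=
  ∑ t ∈ Finset.univ.filter (fun t : ZMod p => t ≠ 0), ‖φ (z ^ t.val)‖ ^ 2

theorem shareB_nonneg {G : Type u} [Group G] (p : ℕ) [Fact p.Prime] (z : G) (φ : G → ℂ) :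
    0 ≤ shareB p z φ :=
  Finset.sum_nonneg fun _ _ => by positivity

/-- powers of `z` with exponents read modulo `p` -/
theorem pow_val_mul {G : Type u} [Group G] (p : ℕ) [Fact p.Prime] (z : G) (hz : z ^ p = 1)
    (k : ℕ) (t : ZMod p) : (z ^ t.val) ^ k = z ^ ((k : ZMod p) * t).val := by
  have h1 : ((k : ZMod p) * t).val = (k * t.val) % p := by
    have h2 : ((k : ZMod p) * t) = ((k * t.val : ℕ) : ZMod p) := by
      rw [Nat.cast_mul, ZMod.natCast_zmod_val]
    rw [h2, ZMod.val_natCast]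
  rw [h1, ← pow_mul, mul_comm t.val k]
  exact pow_eq_pow_mod _ hz

theorem pow_val_nat {G : Type u} [Group G] (p : ℕ) [Fact p.Prime] (z : G) (hz : z ^ p = 1)
    (k : ℕ) : z ^ k = z ^ ((k : ZMod p)).val := by
  rw [ZMod.val_natCast]
  exact pow_eq_pow_mod _ hz

theorem gc_inj {G : Type u} [Group G] [Finite G] (p : ℕ) [Fact p.Prime] {k : ℕ}
    (hk : GalExp p G k) {φ₁ φ₂ : IrrCharacter G} (h : gc hk φ₁ = gc hk φ₂) : φ₁ = φ₂ := by
  apply Subtype.ext
  funext g
  obtain ⟨x, rfl⟩ := (powCoprime hk.cop.symm).surjective g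
  have h1 := congrArg (fun ψ : IrrCharacter G => ψ.1 x) h
  simpa [gc_apply] using h1

theorem gc_sameZ {G : Type u} [Group G] [Finite G] (p : ℕ) [Fact p.Prime]
    (hnn : ∀ H : Subgroup G, H.Normal → Nat.card H ≠ p) {k : ℕ}
    (hk : GalExp p G k) (χ : G → ℂ) (φ : IrrCharacter G) (h : SameZ χ φ.1) :
    SameZ χ (gc hk φ).1 := by
  intro u hu
  rw [gc_apply, gc_apply, one_pow, hk.reg u (hp_nocent p hnn u hu)]
  exact h u hu

theorem gc_share {G : Type u} [Group G] (p : ℕ) [Fact p.Prime] {k : ℕ}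
    (hk : GalExp p G k) (hk0 : (k : ZMod p) ≠ 0) (z : G) (hz : z ^ p = 1) (φ : IrrCharacter G) :
    shareB p z (gc hk φ).1 = shareB p z φ.1 := by
  unfold shareB
  have h1 : ∀ t : ZMod p, (gc hk φ).1 (z ^ t.val) = φ.1 (z ^ ((k : ZMod p) * t).val) := by
    intro t
    rw [gc_apply, pow_val_mul p z hz]
  simp_rw [h1]
  refine Finset.sum_nbij' (fun t => (k : ZMod p) * t) (fun t => (k : ZMod p)⁻¹ * t) ?_ ?_ ?_ ?_ ?_
  · intro t ht
    simp only [Finset.mem_filter, Finset.mem_univ, true_and] at ht ⊢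
    exact mul_ne_zero hk0 ht
  · intro t ht
    simp only [Finset.mem_filter, Finset.mem_univ, true_and] at ht ⊢
    exact mul_ne_zero (inv_ne_zero hk0) ht
  · intro t _
    rw [← mul_assoc, inv_mul_cancel₀ hk0, one_mul]
  · intro t _
    rw [← mul_assoc, mul_inv_cancel₀ hk0, one_mul]
  · intro t _
    rfl

theorem four_le {ι : Type*} [DecidableEq ι] (T : Finset ι) (f : ι → ℝ) (hf : ∀ i ∈ T, 0 ≤ f i)
    (a b c d : ι) (ha : a ∈ T) (hb : b ∈ T) (hc : c ∈ T) (hd : d ∈ T)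
    (hab : a ≠ b) (hac : a ≠ c) (had : a ≠ d) (hbc : b ≠ c) (hbd : b ≠ d) (hcd : c ≠ d) :
    f a + f b + f c + f d ≤ ∑ i ∈ T, f i := by
  have hsub : ({a, b, c, d} : Finset ι) ⊆ T := by
    intro i hi
    simp only [Finset.mem_insert, Finset.mem_singleton] at hi
    rcases hi with rfl | rfl | rfl | rfl <;> assumption
  have h1 := Finset.sum_le_sum_of_subset_of_nonneg hsub (f := f) (fun i hi _ => hf i hi)
  have h2 : ∑ i ∈ ({a, b, c, d} : Finset ι), f i = f a + f b + f c + f d := by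
    rw [Finset.sum_insert (by simp [hab, hac, had]), Finset.sum_insert (by simp [hbc, hbd]),
      Finset.sum_insert (by simp [hcd]), Finset.sum_singleton]
    ring
  linarith

theorem nat_sq_ge_one (a b : ℕ) (h : a ≠ b) : (1 : ℝ) ≤ ((a : ℝ) - b) ^ 2 := by
  rcases Nat.lt_or_gt_of_ne h with h1 | h1
  · have h2 : (a : ℝ) + 1 ≤ b := by exact_mod_cast h1
    nlinarith
  · have h2 : (b : ℝ) + 1 ≤ a := by exact_mod_cast h1
    nlinarith

open Classical in
/-- PIECE HP-STARSTAR -/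
theorem hp_starstar {G : Type u} [Group G] [Fintype G] [Fintype (IrrCharacter G)]
    (p : ℕ) [Fact p.Prime]
    (hdiv : p ∣ Nat.card G) (hsq : ¬ p ^ 2 ∣ Nat.card G)
    (hnn : ∀ H : Subgroup G, H.Normal → Nat.card H ≠ p)
    (χ : IrrCharacter G) (hfaith : ∀ g : G, χ.1 g = χ.1 1 → g = 1)
    (e : ℕ) (he : charDegree χ.1 = e) (hdeg : 2 * e + 1 = p) (z : G) (ζ : ℂ)
    (hHP : HP p ζ z χ.1) (k : ℕ) (hk : GalExp p G k) (g : G) (hg : ¬ p ∣ orderOf g) :
    ∑ φ ∈ Finset.univ.filter (fun φ : IrrCharacter G => SameZ χ.1 φ.1),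
        φ.1 z * (φ.1 z - φ.1 (z ^ k)) * conj (φ.1 g) / φ.1 1 =
      (eta p ζ 1 - eta p ζ (k : ZMod p)) ^ 2 * conj (χ.1 g) / (e : ℂ) := by
  have hp : p.Prime := Fact.out
  have hp2 : p ≠ 2 := by omega
  have he1 : 1 ≤ e := by
    have := hp.two_le
    omega
  have hzp : z ^ p = 1 := by rw [← hHP.hz]; exact pow_orderOf_eq_one z
  set s : ZMod p := (k : ZMod p) with hsdef
  have hs0 : s ≠ 0 := by
    intro h0
    have h2 : p ∣ k := (ZMod.natCast_eq_zero_iff k p).mp h0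
    have h3 : p ∣ Nat.gcd k (Nat.card G) := Nat.dvd_gcd h2 hdiv
    rw [hk.cop] at h3
    exact hp.one_lt.ne' (Nat.dvd_one.mp h3)
  have hs : s ∉ Sq p := hk.nsq
  have hηall := Cfsg.Agent.Lib.Helper31.HPT.eta_facts p hp2 ζ hHP.hζ
  obtain ⟨-, -, -, hinv, -, hη⟩ := hηall
  have hss : s * s ∈ Sq p := by
    unfold Sq
    simp only [Finset.mem_filter, Finset.mem_univ, true_and]
    exact ⟨mul_ne_zero hs0 hs0, ⟨s, rfl⟩⟩
  have hη11 : eta p ζ (s * s) = eta p ζ 1 := by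
    have := hinv (s * s) hss 1
    rwa [mul_one] at this
  have hηne : eta p ζ 1 ≠ eta p ζ s := by
    intro h
    have h1 := ((hη s hs0 hs).2 1 one_ne_zero).2
    rw [mul_one, h, sub_self, norm_zero] at h1
    have h2 : (p : ℝ) = 0 := by rw [← h1]; norm_num
    have h3 : (p : ℝ) ≠ 0 := by exact_mod_cast hp.ne_zero
    exact h3 h2
  have hval1 : (1 : ZMod p).val = 1 := by
    have : Fact (1 < p) := ⟨hp.one_lt⟩
    exact ZMod.val_one p
  -- values at `z` and `z ^ k`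
  have hz1 : ∀ φ : IrrCharacter G, φ.1 z = φ.1 (z ^ (1 : ZMod p).val) := by
    intro φ
    rw [hval1, pow_one]
  have hzk : z ^ k = z ^ s.val := pow_val_nat p z hzp k
  have hzkk : (z ^ k) ^ k = z ^ (s * s).val := by
    rw [hzk, pow_val_mul p z hzp]
  -- the Galois twist of `χ`
  set χ' : IrrCharacter G := gc hk χ with hχ'
  have hχW : SameZ χ.1 χ.1 := fun u _ => rfl
  have hχ'W : SameZ χ.1 χ'.1 := gc_sameZ p hnn hk χ.1 χ hχW
  have hχz : χ.1 z = eta p ζ 1 := by rw [hz1, hHP.hval]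
  have hχzk : χ.1 (z ^ k) = eta p ζ s := by rw [hzk, hHP.hval]
  have hχ'z : χ'.1 z = eta p ζ s := by rw [hχ', gc_apply, hχzk]
  have hχ'zk : χ'.1 (z ^ k) = eta p ζ 1 := by rw [hχ', gc_apply, hzkk, hHP.hval, hη11]
  have hχχ' : χ ≠ χ' := by
    intro h
    have h1 : χ.1 z = χ'.1 z := by rw [← h]
    rw [hχz, hχ'z] at h1
    exact hηne h1
  -- the budget
  have hbud : ∑ φ ∈ Finset.univ.filter (fun φ : IrrCharacter G => SameZ χ.1 φ.1),
      shareB p z φ.1 = (p : ℝ) * ((p : ℝ) - 1) := by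
    unfold shareB
    rw [Finset.sum_comm]
    have h1 : ∀ t ∈ Finset.univ.filter (fun t : ZMod p => t ≠ 0),
        ∑ φ ∈ Finset.univ.filter (fun φ : IrrCharacter G => SameZ χ.1 φ.1),
          ‖φ.1 (z ^ t.val)‖ ^ 2 = (p : ℝ) := by
      intro t ht
      simp only [Finset.mem_filter, Finset.mem_univ, true_and] at ht
      have h2 := hp_budget p hnn χ.1 z ζ hHP χ t ht
      have h3 : ((∑ φ ∈ Finset.univ.filter (fun φ : IrrCharacter G => SameZ χ.1 φ.1),
          ‖φ.1 (z ^ t.val)‖ ^ 2 : ℝ) : ℂ) = (p : ℂ) := by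
        rw [← h2]
        push_cast
        refine Finset.sum_congr rfl fun φ _ => ?_
        rw [Complex.mul_conj, Complex.normSq_eq_norm_sq]
        push_cast
        rfl
      exact_mod_cast h3
    rw [Finset.sum_congr rfl h1, Finset.sum_const, nsmul_eq_mul]
    have h4 : (Finset.univ.filter (fun t : ZMod p => t ≠ 0)).card = p - 1 := by
      rw [Finset.filter_ne' Finset.univ (0 : ZMod p), Finset.card_erase_of_mem (Finset.mem_univ _),
        Finset.card_univ, ZMod.card]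
    rw [h4, Nat.cast_sub hp.one_lt.le]
    push_cast
    ring
  -- shares
  have hshare : ∀ (φ : IrrCharacter G) (γ α β : ℕ), (∀ t : ZMod p,
      φ.1 (z ^ t.val) = (γ : ℂ) + (α : ℂ) * eta p ζ t + (β : ℂ) * eta p ζ (s * t)) → α ≠ β →
      (e : ℝ) * ((e : ℝ) + 1) ≤ shareB p z φ.1 := by
    intro φ γ α β hrep hαβ
    have h1 : shareB p z φ.1 = (e : ℝ) * (((γ : ℝ) - α) ^ 2 + ((γ : ℝ) - β) ^ 2 +
        e * ((α : ℝ) - β) ^ 2) := by
      rw [← Cfsg.Agent.Lib.Helper46.HPT.hp_quad p ζ (Cfsg.Agent.Lib.Helper31.HPT.eta_facts p hp2 ζ hHP.hζ) e hdeg s hs0 hs γ α β]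
      unfold shareB
      refine Finset.sum_congr rfl fun t _ => ?_
      rw [hrep t]
    rw [h1]
    have h2 := nat_sq_ge_one α β hαβ
    have h3 : (1 : ℝ) ≤ ((γ : ℝ) - α) ^ 2 + ((γ : ℝ) - β) ^ 2 := by
      by_cases hγ : γ = α
      · have := nat_sq_ge_one γ β (hγ ▸ hαβ)
        nlinarith [sq_nonneg ((γ : ℝ) - α)]
      · have := nat_sq_ge_one γ α hγ
        nlinarith [sq_nonneg ((γ : ℝ) - β)]
    have he0 : (0 : ℝ) ≤ (e : ℝ) := Nat.cast_nonneg e
    have h4 : (e : ℝ) + 1 ≤ ((γ : ℝ) - α) ^ 2 + ((γ : ℝ) - β) ^ 2 + e * ((α : ℝ) - β) ^ 2 := by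
      nlinarith
    exact mul_le_mul_of_nonneg_left h4 he0
  have hBχ : (e : ℝ) * ((e : ℝ) + 1) ≤ shareB p z χ.1 := by
    refine hshare χ 0 1 0 (fun t => ?_) one_ne_zero
    rw [hHP.hval]
    push_cast
    ring
  have hBχ' : (e : ℝ) * ((e : ℝ) + 1) ≤ shareB p z χ'.1 := by
    rw [hχ', gc_share p hk hs0 z hzp χ]
    exact hBχ
  -- the main claim
  have hclaim : ∀ φ : IrrCharacter G, SameZ χ.1 φ.1 → φ ≠ χ → φ ≠ χ' →
      φ.1 z = φ.1 (z ^ k) := by
    intro φ hφW hφ1 hφ2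
    by_contra hne
    obtain ⟨γ, α, β, hrep⟩ := Cfsg.Agent.Lib.Helper60.HPT.hp_exact p hp2 χ.1 z ζ hHP s hs0 hs φ
    have hαβ : α ≠ β := by
      rintro rfl
      apply hne
      rw [hz1, hzk, hrep, hrep, mul_one, hη11]
      ring
    have hBφ := hshare φ γ α β hrep hαβ
    have h4th : ∃ ψ : IrrCharacter G, SameZ χ.1 ψ.1 ∧ ψ ≠ χ ∧ ψ ≠ χ' ∧ ψ ≠ φ ∧
        (e : ℝ) * ((e : ℝ) + 1) ≤ shareB p z ψ.1 := by
      by_cases hcase : gc hk φ = χ
      · refine ⟨gc hk χ', gc_sameZ p hnn hk χ.1 χ' hχ'W, ?_, ?_, ?_, ?_⟩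
        · intro h
          rw [← hcase] at h
          exact hφ2 (gc_inj p hk h).symm
        · intro h
          exact hχχ' (gc_inj p hk h).symm
        · intro h
          apply hne
          have h1 : φ.1 z = eta p ζ 1 := by
            rw [← h, gc_apply, hχ'zk]
          have h2 : φ.1 (z ^ k) = eta p ζ 1 := by
            have h3 : (gc hk φ).1 z = χ.1 z := by rw [hcase]
            rw [gc_apply] at h3
            rw [h3, hχz]
          rw [h1, h2]
        · rw [gc_share p hk hs0 z hzp χ']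
          exact hBχ'
      · refine ⟨gc hk φ, gc_sameZ p hnn hk χ.1 φ hφW, hcase, ?_, ?_, ?_⟩
        · intro h
          exact hφ1 (gc_inj p hk h)
        · intro h
          apply hne
          have h1 : (gc hk φ).1 z = φ.1 z := by rw [h]
          rw [gc_apply] at h1
          exact h1.symm
        · rw [gc_share p hk hs0 z hzp φ]
          exact hBφ
    obtain ⟨ψ, hψW, hψ1, hψ2, hψ3, hBψ⟩ := h4th
    have hmem : ∀ θ : IrrCharacter G, SameZ χ.1 θ.1 →
        θ ∈ Finset.univ.filter (fun φ : IrrCharacter G => SameZ χ.1 φ.1) := by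
      intro θ hθ
      simp only [Finset.mem_filter, Finset.mem_univ, true_and]
      exact hθ
    have h4 := four_le (Finset.univ.filter (fun φ : IrrCharacter G => SameZ χ.1 φ.1))
      (fun θ => shareB p z θ.1) (fun θ _ => shareB_nonneg p z θ.1) χ χ' φ ψ
      (hmem χ hχW) (hmem χ' hχ'W) (hmem φ hφW) (hmem ψ hψW)
      hχχ' (Ne.symm hφ1) (Ne.symm hψ1) (Ne.symm hφ2) (Ne.symm hψ2) (Ne.symm hψ3)
    rw [hbud] at h4
    have hpe : (p : ℝ) = 2 * (e : ℝ) + 1 := by
      rw [← hdeg]; push_cast; ring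
    have he1' : (1 : ℝ) ≤ (e : ℝ) := by exact_mod_cast he1
    rw [hpe] at h4
    nlinarith
  -- the sum has only the terms `χ` and `χ'`
  have hmemχ : χ ∈ Finset.univ.filter (fun φ : IrrCharacter G => SameZ χ.1 φ.1) := by
    simp only [Finset.mem_filter, Finset.mem_univ, true_and]
    exact hχW
  have hmemχ' : χ' ∈ Finset.univ.filter (fun φ : IrrCharacter G => SameZ χ.1 φ.1) := by
    simp only [Finset.mem_filter, Finset.mem_univ, true_and]
    exact hχ'W
  rw [Finset.sum_eq_add_of_mem χ χ' hmemχ hmemχ' hχχ']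
  · obtain ⟨hd1, hd0⟩ := Cfsg.Agent.Lib.Helper82.irr_charDegree χ
    rw [he] at hd1
    have hχ'1 : χ'.1 1 = χ.1 1 := by rw [hχ', gc_apply, one_pow]
    have hχ'g : χ'.1 g = χ.1 g := by rw [hχ', gc_apply, hk.reg g hg]
    rw [hχ'1, hχ'g, hχz, hχzk, hχ'z, hχ'zk, ← hd1]
    ring
  · intro φ hφ hφne
    simp only [Finset.mem_filter, Finset.mem_univ, true_and] at hφ
    rw [hclaim φ hφ hφne.1 hφne.2, sub_self, mul_zero, zero_mul, zero_div]

end Cfsg.Agent.Lib.Helper84.HPT
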