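import Mathlib
import Cfsg.Agent.Lib.Helper84.IndHom
import Cfsg.Agent.S0906

/-!
# The Harris–Knörr correspondence (helper84)

`N ⊴ G`, `Q ≤ N` a `p`-subgroup, `d` a block of `N` with defect group `Q`, `e` its Brauer
correspondent in `N_N(Q) = N_G(Q) ⊓ N`.  Block induction is a bijection from the blocks of
`N_G(Q)` covering `e` onto the blocks of `G` covering `d`.
-/

set_option autoImplicit false
set_option linter.style.haveILetI false

namespace Cfsg.Agent.Lib.Helper84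

open Cfsg Cfsg.Agent.Lib.Helper4 Cfsg.Agent.Lib.Helper21 Cfsg.Agent.Lib.Helper22
  Cfsg.Agent.Lib.Helper81
open scoped ComplexConjugate

section hk

variable {G : Type*} [Group G] [Fintype G] {p : ℕ} [Fact p.Prime] {M : Ideal AlgInt}

omit [Fintype G] [Fact p.Prime] in
theorem normalizer_le_of_inf_eq (N : Subgroup G) [hN : N.Normal] (D Q : Subgroup G)
    (h : D ⊓ N = Q) :
    Subgroup.normalizer (D : Set G) ≤ Subgroup.normalizer (Q : Set G) := by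
  intro g hg
  rw [Subgroup.mem_normalizer_iff] at hg ⊢
  intro q
  have hNc : q ∈ N ↔ g * q * g⁻¹ ∈ N :=
    ⟨fun h => hN.conj_mem q h g, fun h => by simpa [mul_assoc] using hN.conj_mem _ h g⁻¹⟩
  rw [← h, Subgroup.mem_inf, Subgroup.mem_inf, ← hg q, ← hNc]

omit [Fintype G] [Fact p.Prime] in
theorem subtype_comp_inclusion {H K : Subgroup G} (h : K ≤ H) :
    H.subtype.comp (Subgroup.inclusion h) = K.subtype := by
  ext y
  rfl

/-- existence half of the first part of Harris–Knörr -/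
theorem hk_part1 (hM : IsPModular p M) (N : Subgroup G) [hN : N.Normal] [Fintype N]
    (Q : Subgroup G) (hQN : Q ≤ N) [Fintype ↥(Subgroup.normalizer (Q : Set G) ⊓ N)]
    (d : Set (IrrCharacter N)) (e : Set (IrrCharacter ↥(Subgroup.normalizer (Q : Set G) ⊓ N)))
    (he : IsPBlock M e)
    (heQ : IsDefectGroup p M e (Q.subgroupOf (Subgroup.normalizer (Q : Set G) ⊓ N)))
    (hed : IsInducedBlockIn M N (Subgroup.normalizer (Q : Set G) ⊓ N) e d)
    (c : Set (IrrCharacter ↥(Subgroup.normalizer (Q : Set G)))) (hc : IsPBlock M c)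
    (hcov : ∃ ψ ∈ c, ∃ ξ ∈ e, classInner (fun l : ↥(Subgroup.normalizer (Q : Set G) ⊓ N) =>
      (ψ : ↥(Subgroup.normalizer (Q : Set G)) → ℂ) (Subgroup.inclusion inf_le_left l))
      (ξ : ↥(Subgroup.normalizer (Q : Set G) ⊓ N) → ℂ) ≠ 0) :
    ∃ B : Set (IrrCharacter G), IsInducedBlock M (Subgroup.normalizer (Q : Set G)) c B ∧
      ∃ χ ∈ B, ∃ θ ∈ d, classInner (fun n : N => (χ : G → ℂ) n) (θ : N → ℂ) ≠ 0 := by
  classical
  obtain ⟨D, hDH, hDc, hDN⟩ := knorr_sub hM N (Subgroup.normalizer (Q : Set G)) c hc e he Q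
    (le_inf Subgroup.le_normalizer hQN) heQ hcov
  have hNH := normalizer_le_of_inf_eq N D Q hDN
  have hDp : IsPGroup p D :=
    (isDefectGroup_isPGroup c _ hDc).of_equiv (Subgroup.subgroupOfEquivOfLe hDH)
  obtain ⟨b, hb, hbD, hbc⟩ := fmt_down_sub hM D (Subgroup.normalizer (Q : Set G)) hDp hNH c hc hDc
  obtain ⟨B, hB, hBD, hbB, -⟩ := fmt_up hM D hDp b hb hbD
  have hcB : IsInducedBlock M (Subgroup.normalizer (Q : Set G)) c B := by
    have h1 : IndHom M ((Subgroup.normalizer (Q : Set G)).subtype.comp (Subgroup.inclusion hNH))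
        b B := by
      rw [subtype_comp_inclusion]
      exact hbB
    exact IndHom.of_comp hM hbc h1
  exact ⟨B, hcB, cover_transfer hM N (Subgroup.normalizer (Q : Set G)) c e d B hcov hcB hed⟩

/-- a block of `N_G(Q)` covering `e` and inducing `B` has every defect group `D` of `B`
with `D ⊓ N = Q` as a defect group -/
theorem hk_defect (hM : IsPModular p M) (N : Subgroup G) [hN : N.Normal]
    (Q : Subgroup G) (hQN : Q ≤ N) [Fintype ↥(Subgroup.normalizer (Q : Set G) ⊓ N)]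
    (e : Set (IrrCharacter ↥(Subgroup.normalizer (Q : Set G) ⊓ N)))
    (he : IsPBlock M e)
    (heQ : IsDefectGroup p M e (Q.subgroupOf (Subgroup.normalizer (Q : Set G) ⊓ N)))
    (c : Set (IrrCharacter ↥(Subgroup.normalizer (Q : Set G)))) (hc : IsPBlock M c)
    (hcov : ∃ ψ ∈ c, ∃ ξ ∈ e, classInner (fun l : ↥(Subgroup.normalizer (Q : Set G) ⊓ N) =>
      (ψ : ↥(Subgroup.normalizer (Q : Set G)) → ℂ) (Subgroup.inclusion inf_le_left l))
      (ξ : ↥(Subgroup.normalizer (Q : Set G) ⊓ N) → ℂ) ≠ 0)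
    (B : Set (IrrCharacter G)) (hcB : IsInducedBlock M (Subgroup.normalizer (Q : Set G)) c B)
    (D : Subgroup G) (hDB : IsDefectGroup p M B D) (hDN : D ⊓ N = Q) :
    IsDefectGroup p M c (D.subgroupOf (Subgroup.normalizer (Q : Set G))) := by
  classical
  obtain ⟨D₁, hD₁H, hD₁c, hD₁N⟩ := knorr_sub hM N (Subgroup.normalizer (Q : Set G)) c hc e he Q
    (le_inf Subgroup.le_normalizer hQN) heQ hcov
  have hNH₁ := normalizer_le_of_inf_eq N D₁ Q hD₁N
  have hD₁p : IsPGroup p D₁ :=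
    (isDefectGroup_isPGroup c _ hD₁c).of_equiv (Subgroup.subgroupOfEquivOfLe hD₁H)
  obtain ⟨b, hb, hbD, hbc⟩ := fmt_down_sub hM D₁ (Subgroup.normalizer (Q : Set G)) hD₁p hNH₁ c
    hc hD₁c
  have hbB : IsInducedBlock M (Subgroup.normalizer (D₁ : Set G)) b B := by
    have h1 := IndHom.trans hM hbc ((isInducedBlock_iff_indHom _ _ _).mp hcB)
    rwa [subtype_comp_inclusion] at h1
  letI : Fintype (Subgroup.normalizer (D₁ : Set G)) := Fintype.ofFinite _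
  have hD₁B := fmt_defectGroup_induced hM D₁ hD₁p b hbD B hbB
  obtain ⟨x, hx⟩ := defectGroup_conj hM B hcB.2.1 D₁ D hD₁B hDB
  have hmem : ∀ y, y ∈ D ↔ x⁻¹ * y * x ∈ D₁ := by
    intro y
    rw [← hx, Subgroup.mem_map_equiv, MulAut.conj_symm_apply]
  have hNc : ∀ q, x * q * x⁻¹ ∈ N ↔ q ∈ N := fun q =>
    ⟨fun h => by simpa [mul_assoc] using hN.conj_mem _ h x⁻¹, fun h => hN.conj_mem q h x⟩
  have hxH : x ∈ Subgroup.normalizer (Q : Set G) := by
    rw [Subgroup.mem_normalizer_iff]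
    intro q
    have e1 : q ∈ Q ↔ q ∈ D₁ ∧ q ∈ N := by rw [← hD₁N, Subgroup.mem_inf]
    have e2 : x * q * x⁻¹ ∈ Q ↔ q ∈ D₁ ∧ q ∈ N := by
      rw [← hDN, Subgroup.mem_inf, hmem, hNc, show x⁻¹ * (x * q * x⁻¹) * x = q by group]
    rw [e1, e2]
  have h2 := isDefectGroup_conj (M := M) (p := p) c
    (D₁.subgroupOf (Subgroup.normalizer (Q : Set G))) ⟨x, hxH⟩ hD₁c
  have e2 : (D₁.subgroupOf (Subgroup.normalizer (Q : Set G))).map
      (MulAut.conj (⟨x, hxH⟩ : Subgroup.normalizer (Q : Set G))).toMonoidHom =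
      D.subgroupOf (Subgroup.normalizer (Q : Set G)) := by
    ext y
    rw [Subgroup.mem_map_equiv, MulAut.conj_symm_apply, Subgroup.mem_subgroupOf,
      Subgroup.mem_subgroupOf, hmem]
    rfl
  rwa [e2] at h2

/-- uniqueness half of the second part of Harris–Knörr -/
theorem hk_unique (hM : IsPModular p M) (N : Subgroup G) [hN : N.Normal] [Fintype N]
    (Q : Subgroup G) (hQN : Q ≤ N) [Fintype ↥(Subgroup.normalizer (Q : Set G) ⊓ N)]
    (d : Set (IrrCharacter N)) (hd : IsPBlock M d)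
    (hdQ : IsDefectGroup p M d (Q.subgroupOf N))
    (e : Set (IrrCharacter ↥(Subgroup.normalizer (Q : Set G) ⊓ N)))
    (he : IsPBlock M e)
    (heQ : IsDefectGroup p M e (Q.subgroupOf (Subgroup.normalizer (Q : Set G) ⊓ N)))
    (B : Set (IrrCharacter G)) (hB : IsPBlock M B)
    (hcovB : ∃ χ ∈ B, ∃ θ ∈ d, classInner (fun n : N => (χ : G → ℂ) n) (θ : N → ℂ) ≠ 0)
    (c₁ c₂ : Set (IrrCharacter ↥(Subgroup.normalizer (Q : Set G))))
    (hc₁ : IsPBlock M c₁) (hc₂ : IsPBlock M c₂)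
    (hcov₁ : ∃ ψ ∈ c₁, ∃ ξ ∈ e, classInner (fun l : ↥(Subgroup.normalizer (Q : Set G) ⊓ N) =>
      (ψ : ↥(Subgroup.normalizer (Q : Set G)) → ℂ) (Subgroup.inclusion inf_le_left l))
      (ξ : ↥(Subgroup.normalizer (Q : Set G) ⊓ N) → ℂ) ≠ 0)
    (hcov₂ : ∃ ψ ∈ c₂, ∃ ξ ∈ e, classInner (fun l : ↥(Subgroup.normalizer (Q : Set G) ⊓ N) =>
      (ψ : ↥(Subgroup.normalizer (Q : Set G)) → ℂ) (Subgroup.inclusion inf_le_left l))
      (ξ : ↥(Subgroup.normalizer (Q : Set G) ⊓ N) → ℂ) ≠ 0)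
    (h₁ : IsInducedBlock M (Subgroup.normalizer (Q : Set G)) c₁ B)
    (h₂ : IsInducedBlock M (Subgroup.normalizer (Q : Set G)) c₂ B) : c₁ = c₂ := by
  classical
  obtain ⟨D, hDB, hDN⟩ := Cfsg.Agent.S4438.result p M hM N d hd Q hQN hdQ B hB hcovB
  have hD₁ := hk_defect hM N Q hQN e he heQ c₁ hc₁ hcov₁ B h₁ D hDB hDN
  have hD₂ := hk_defect hM N Q hQN e he heQ c₂ hc₂ hcov₂ B h₂ D hDB hDN
  have hNH := normalizer_le_of_inf_eq N D Q hDN
  have hDp : IsPGroup p D := isDefectGroup_isPGroup B D hDB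
  obtain ⟨b₁, hb₁, hb₁D, hb₁c⟩ := fmt_down_sub hM D (Subgroup.normalizer (Q : Set G)) hDp hNH c₁
    hc₁ hD₁
  obtain ⟨b₂, hb₂, hb₂D, hb₂c⟩ := fmt_down_sub hM D (Subgroup.normalizer (Q : Set G)) hDp hNH c₂
    hc₂ hD₂
  have hb₁B : IsInducedBlock M (Subgroup.normalizer (D : Set G)) b₁ B := by
    have h1 := IndHom.trans hM hb₁c ((isInducedBlock_iff_indHom _ _ _).mp h₁)
    rwa [subtype_comp_inclusion] at h1
  have hb₂B : IsInducedBlock M (Subgroup.normalizer (D : Set G)) b₂ B := by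
    have h1 := IndHom.trans hM hb₂c ((isInducedBlock_iff_indHom _ _ _).mp h₂)
    rwa [subtype_comp_inclusion] at h1
  letI : Fintype (Subgroup.normalizer (D : Set G)) := Fintype.ofFinite _
  have hbb := fmt_unique hM D hDp B b₁ b₂ hb₁B hb₂B hb₁D hb₂D
  subst hbb
  exact indHom_unique hM hb₁c hb₂c

end hk

section cjs

variable {G : Type*} [Group G]

/-- conjugation by `g` on a normal subgroup -/
def cjN (N : Subgroup G) [hN : N.Normal] (g : G) : N ≃* N :=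
  conjEquiv N g (fun x hx => hN.conj_mem x hx g)
    (fun x hx => by simpa using hN.conj_mem x hx g⁻¹)

/-- conjugation by `g ∈ H` on `H ⊓ N` -/
def cjK (N H : Subgroup G) [hN : N.Normal] (g : G) (hg : g ∈ H) : ↥(H ⊓ N) ≃* ↥(H ⊓ N) :=
  conjEquiv (H ⊓ N) g
    (fun x hx => Subgroup.mem_inf.mpr
      ⟨H.mul_mem (H.mul_mem hg (Subgroup.mem_inf.mp hx).1) (H.inv_mem hg),
        hN.conj_mem x (Subgroup.mem_inf.mp hx).2 g⟩)
    (fun x hx => Subgroup.mem_inf.mpr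
      ⟨H.mul_mem (H.mul_mem (H.inv_mem hg) (Subgroup.mem_inf.mp hx).1) hg,
        by simpa using hN.conj_mem x (Subgroup.mem_inf.mp hx).2 g⁻¹⟩)

theorem cjN_apply_coe (N : Subgroup G) [hN : N.Normal] (g : G) (n : N) :
    ((cjN N g n : N) : G) = g * n * g⁻¹ := rfl

theorem cjK_apply_coe (N H : Subgroup G) [hN : N.Normal] (g : G) (hg : g ∈ H) (k : ↥(H ⊓ N)) :
    ((cjK N H g hg k : ↥(H ⊓ N)) : G) = g * k * g⁻¹ := rfl

/-- `N_N(Q)`, as a subgroup of `N`, is `N_G(Q) ⊓ N` -/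
def normInfEquiv (N Q : Subgroup G) (hQN : Q ≤ N) :
    ↥(Subgroup.normalizer ((Q.subgroupOf N : Subgroup N) : Set N)) ≃*
      ↥(Subgroup.normalizer (Q : Set G) ⊓ N) where
  toFun m := ⟨((m : N) : G), ⟨(mem_normalizer_subgroupOf_iff hQN (m : N)).mp m.2, (m : N).2⟩⟩
  invFun k := ⟨⟨(k : G), k.2.2⟩, (mem_normalizer_subgroupOf_iff hQN _).mpr k.2.1⟩
  left_inv _ := rfl
  right_inv _ := rfl
  map_mul' _ _ := rfl

theorem normInfEquiv_apply_coe (N Q : Subgroup G) (hQN : Q ≤ N)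
    (m : ↥(Subgroup.normalizer ((Q.subgroupOf N : Subgroup N) : Set N))) :
    ((normInfEquiv N Q hQN m : ↥(Subgroup.normalizer (Q : Set G) ⊓ N)) : G) = ((m : N) : G) :=
  rfl

end cjs

section hk2

variable {G : Type*} [Group G] [Fintype G] {p : ℕ} [Fact p.Prime] {M : Ideal AlgInt}

theorem defect_normInf (N Q : Subgroup G) (hQN : Q ≤ N)
    (e₁ : Set (IrrCharacter ↥(Subgroup.normalizer (Q : Set G) ⊓ N)))
    (he₁Q : IsDefectGroup p M e₁ (Q.subgroupOf (Subgroup.normalizer (Q : Set G) ⊓ N))) :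
    IsDefectGroup p M (irrMap (normInfEquiv N Q hQN).symm '' e₁)
      ((Q.subgroupOf N).subgroupOf
        (Subgroup.normalizer ((Q.subgroupOf N : Subgroup N) : Set N))) := by
  have h1 := isDefectGroup_image_irrMap (M := M) (p := p) (normInfEquiv N Q hQN).symm e₁ _ he₁Q
  have e1 : (Q.subgroupOf (Subgroup.normalizer (Q : Set G) ⊓ N)).map
      (normInfEquiv N Q hQN).symm.toMonoidHom =
      (Q.subgroupOf N).subgroupOf
        (Subgroup.normalizer ((Q.subgroupOf N : Subgroup N) : Set N)) := by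
    ext y
    rw [Subgroup.mem_map_equiv, MulEquiv.symm_symm, Subgroup.mem_subgroupOf,
      Subgroup.mem_subgroupOf, Subgroup.mem_subgroupOf]
    rfl
  rwa [e1] at h1

/-- first main theorem inside `N`, existence, in terms of `IsInducedBlockIn` -/
theorem fmt_in_exists (hM : IsPModular p M) (N Q : Subgroup G) (hQ : IsPGroup p Q)
    (hQN : Q ≤ N) (e₁ : Set (IrrCharacter ↥(Subgroup.normalizer (Q : Set G) ⊓ N)))
    (he₁ : IsPBlock M e₁)
    (he₁Q : IsDefectGroup p M e₁ (Q.subgroupOf (Subgroup.normalizer (Q : Set G) ⊓ N))) :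
    ∃ d₁ : Set (IrrCharacter N), IsPBlock M d₁ ∧ IsDefectGroup p M d₁ (Q.subgroupOf N) ∧
      IsInducedBlockIn M N (Subgroup.normalizer (Q : Set G) ⊓ N) e₁ d₁ := by
  classical
  letI : Fintype N := Fintype.ofFinite _
  have hb : IsPBlock M (irrMap (normInfEquiv N Q hQN).symm '' e₁) :=
    isPBlock_image_irrMap _ he₁
  have hbD := defect_normInf (M := M) (p := p) N Q hQN e₁ he₁Q
  obtain ⟨d₁, hd₁, hd₁Q, hind, -⟩ := fmt_up hM (Q.subgroupOf N) hQ.comap_subtype _ hb hbD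
  refine ⟨d₁, hd₁, hd₁Q, ?_⟩
  rw [isInducedBlockIn_iff_indHom N _ inf_le_right]
  have h1 := indHom_irrMap_source (normInfEquiv N Q hQN)
    (Subgroup.normalizer ((Q.subgroupOf N : Subgroup N) : Set N)).subtype _ d₁ hind
  have e1 : (Subgroup.normalizer ((Q.subgroupOf N : Subgroup N) : Set N)).subtype.comp
      (normInfEquiv N Q hQN).symm.toMonoidHom =
      Subgroup.inclusion (inf_le_right : Subgroup.normalizer (Q : Set G) ⊓ N ≤ N) := by
    ext k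
    rfl
  rwa [image_irrMap_symm_image, e1] at h1

/-- first main theorem inside `N`, uniqueness, in terms of `IsInducedBlockIn` -/
theorem fmt_in_unique (hM : IsPModular p M) (N Q : Subgroup G) (hQ : IsPGroup p Q)
    (hQN : Q ≤ N) (d₁ : Set (IrrCharacter N))
    (e₁ e₂ : Set (IrrCharacter ↥(Subgroup.normalizer (Q : Set G) ⊓ N)))
    (h₁Q : IsDefectGroup p M e₁ (Q.subgroupOf (Subgroup.normalizer (Q : Set G) ⊓ N)))
    (h₂Q : IsDefectGroup p M e₂ (Q.subgroupOf (Subgroup.normalizer (Q : Set G) ⊓ N)))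
    (h₁ : IsInducedBlockIn M N (Subgroup.normalizer (Q : Set G) ⊓ N) e₁ d₁)
    (h₂ : IsInducedBlockIn M N (Subgroup.normalizer (Q : Set G) ⊓ N) e₂ d₁) : e₁ = e₂ := by
  classical
  letI : Fintype N := Fintype.ofFinite _
  have key : ∀ e' : Set (IrrCharacter ↥(Subgroup.normalizer (Q : Set G) ⊓ N)),
      IsInducedBlockIn M N (Subgroup.normalizer (Q : Set G) ⊓ N) e' d₁ →
      IsInducedBlock M (Subgroup.normalizer ((Q.subgroupOf N : Subgroup N) : Set N))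
        (irrMap (normInfEquiv N Q hQN).symm '' e') d₁ := by
    intro e' hind
    rw [isInducedBlockIn_iff_indHom N _ inf_le_right] at hind
    have h1 := indHom_irrMap_source (normInfEquiv N Q hQN).symm
      (Subgroup.inclusion (inf_le_right : Subgroup.normalizer (Q : Set G) ⊓ N ≤ N)) e' d₁ hind
    have e1 : (Subgroup.inclusion (inf_le_right : Subgroup.normalizer (Q : Set G) ⊓ N ≤ N)).comp
        (normInfEquiv N Q hQN).symm.symm.toMonoidHom =
        (Subgroup.normalizer ((Q.subgroupOf N : Subgroup N) : Set N)).subtype := by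
      ext k
      rfl
    rwa [e1] at h1
  letI : Fintype (Subgroup.normalizer ((Q.subgroupOf N : Subgroup N) : Set N)) :=
    Fintype.ofFinite _
  have h3 := fmt_unique hM (Q.subgroupOf N) hQ.comap_subtype d₁ _ _ (key e₁ h₁) (key e₂ h₂)
    (defect_normInf N Q hQN e₁ h₁Q) (defect_normInf N Q hQN e₂ h₂Q)
  exact (Set.image_injective.mpr (irrMap_injective (normInfEquiv N Q hQN).symm)) h3

omit [Fintype G] [Fact p.Prime] in
/-- conjugating an induction inside `N` by an element of `H` -/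
theorem induced_in_conj (N H : Subgroup G) [hN : N.Normal] [Finite ↥(H ⊓ N)] (g : G)
    (hg : g ∈ H) (e : Set (IrrCharacter ↥(H ⊓ N))) (d : Set (IrrCharacter N))
    (h : IsInducedBlockIn M N (H ⊓ N) e d) :
    IsInducedBlockIn M N (H ⊓ N) (irrMap (cjK N H g hg).symm '' e)
      (irrMap (cjN N g).symm '' d) := by
  rw [isInducedBlockIn_iff_indHom N _ inf_le_right] at h ⊢
  exact IndHom.map (cjK N H g hg).symm (cjN N g).symm _ _ (fun a => Subtype.ext rfl) e d h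

omit [Fintype G] in
theorem defect_cjK (N H Q : Subgroup G) [hN : N.Normal] [Finite ↥(H ⊓ N)] (g : G) (hg : g ∈ H)
    (hgQ : g ∈ Subgroup.normalizer (Q : Set G)) (e : Set (IrrCharacter ↥(H ⊓ N)))
    (h : IsDefectGroup p M e (Q.subgroupOf (H ⊓ N))) :
    IsDefectGroup p M (irrMap (cjK N H g hg).symm '' e) (Q.subgroupOf (H ⊓ N)) := by
  have h1 := isDefectGroup_image_irrMap (M := M) (p := p) (cjK N H g hg).symm e _ h
  have e1 : (Q.subgroupOf (H ⊓ N)).map (cjK N H g hg).symm.toMonoidHom =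
      Q.subgroupOf (H ⊓ N) := by
    ext y
    rw [Subgroup.mem_map_equiv, MulEquiv.symm_symm, Subgroup.mem_subgroupOf,
      Subgroup.mem_subgroupOf, cjK_apply_coe]
    exact ((Subgroup.mem_normalizer_iff.mp hgQ) (y : G)).symm
  rwa [e1] at h1

end hk2

section hk3

variable {G : Type*} [Group G] [Fintype G] {p : ℕ} [Fact p.Prime] {M : Ideal AlgInt}

/-- a block `c` of `H` (normalizing `Q`) with a defect group `D`, `D ⊓ N = Q`, covers a block
of `H ⊓ N` with defect group `Q` -/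
theorem hk_exists_covered (hM : IsPModular p M) (N : Subgroup G) [hN : N.Normal]
    (Q : Subgroup G) (hQN : Q ≤ N) (H : Subgroup G)
    (hHQ : H ≤ Subgroup.normalizer (Q : Set G)) (hQH : Q ≤ H) [Fintype ↥(H ⊓ N)]
    (c : Set (IrrCharacter H)) (hc : IsPBlock M c) (D : Subgroup G)
    (hcD : IsDefectGroup p M c (D.subgroupOf H)) (hDN : D ⊓ N = Q) :
    ∃ e₁ : Set (IrrCharacter ↥(H ⊓ N)), IsPBlock M e₁ ∧
      IsDefectGroup p M e₁ (Q.subgroupOf (H ⊓ N)) ∧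
      ∃ ψ ∈ c, ∃ ξ ∈ e₁, classInner (fun l : ↥(H ⊓ N) =>
        (ψ : H → ℂ) (Subgroup.inclusion inf_le_left l)) (ξ : ↥(H ⊓ N) → ℂ) ≠ 0 := by
  classical
  letI : Fintype H := Fintype.ofFinite _
  letI : Fintype ↥((H ⊓ N).subgroupOf H) := Fintype.ofFinite _
  obtain ⟨ψ, hψ⟩ := exists_mem_of_isPBlock hM hc
  obtain ⟨ξf, hξirr, hξcon⟩ :=
    Cfsg.Agent.Lib.Helper20.exists_constituent ((H ⊓ N).subgroupOf H) ψ.2
  obtain ⟨φ, hφ⟩ : ∃ φ : ↥((H ⊓ N).subgroupOf H) ≃* ↥(H ⊓ N),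
      φ = Subgroup.subgroupOfEquivOfLe (inf_le_left : H ⊓ N ≤ H) := ⟨_, rfl⟩
  obtain ⟨ξ₁, hξ₁def⟩ : ∃ ξ₁ : IrrCharacter ↥(H ⊓ N), ξ₁ = irrMap φ ⟨ξf, hξirr⟩ := ⟨_, rfl⟩
  have hcon₁ : classInner (fun l : ↥(H ⊓ N) =>
      (ψ : H → ℂ) (Subgroup.inclusion inf_le_left l)) (ξ₁ : ↥(H ⊓ N) → ℂ) ≠ 0 := by
    have h1 := classInner_subgroupOf H (H ⊓ N) inf_le_left (ψ : H → ℂ) ξ₁
    have e2 : (trIrr (Subgroup.subgroupOfEquivOfLe (inf_le_left : H ⊓ N ≤ H)) ξ₁ :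
        ↥((H ⊓ N).subgroupOf H) → ℂ) = ξf := by
      funext y
      rw [hξ₁def, ← hφ]
      show ξf (φ.symm (φ y)) = ξf y
      rw [MulEquiv.symm_apply_apply]
    rw [e2] at h1
    intro h0
    apply hξcon
    rw [h1]
    exact h0
  have he₁ : IsPBlock M (blockOf M (ξ₁ : ↥(H ⊓ N) → ℂ)) := ⟨ξ₁, rfl⟩
  have hcov₁ : ∃ ψ ∈ c, ∃ ξ ∈ blockOf M (ξ₁ : ↥(H ⊓ N) → ℂ), classInner (fun l : ↥(H ⊓ N) =>
      (ψ : H → ℂ) (Subgroup.inclusion inf_le_left l)) (ξ : ↥(H ⊓ N) → ℂ) ≠ 0 :=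
    ⟨ψ, hψ, ξ₁, mem_blockOf_self hM ξ₁, hcon₁⟩
  obtain ⟨y, hy⟩ := Cfsg.Agent.S0906.result p M hM _ he₁
  obtain ⟨S⟩ : Nonempty (Sylow p (Subgroup.centralizer ({y} : Set ↥(H ⊓ N)))) := inferInstance
  obtain ⟨R₀, hR₀def⟩ : ∃ R₀ : Subgroup ↥(H ⊓ N),
      R₀ = (S : Subgroup (Subgroup.centralizer ({y} : Set ↥(H ⊓ N)))).map
        (Subgroup.centralizer ({y} : Set ↥(H ⊓ N))).subtype := ⟨_, rfl⟩
  have hR₀ : IsDefectGroup p M (blockOf M (ξ₁ : ↥(H ⊓ N) → ℂ)) R₀ := ⟨y, hy, S, hR₀def⟩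
  have hRK : R₀.map (H ⊓ N).subtype ≤ H ⊓ N := Subgroup.map_subtype_le R₀
  have hRsub : (R₀.map (H ⊓ N).subtype).subgroupOf (H ⊓ N) = R₀ :=
    Subgroup.comap_map_eq_self_of_injective (H ⊓ N).subtype_injective R₀
  obtain ⟨D₁, hD₁H, hD₁c, hD₁N⟩ := knorr_sub hM N H c hc _ he₁ (R₀.map (H ⊓ N).subtype) hRK
    (by rw [hRsub]; exact hR₀) hcov₁
  obtain ⟨x, hx⟩ := defectGroup_conj hM c hc (D.subgroupOf H) (D₁.subgroupOf H) hcD hD₁c
  have hmem : ∀ (y : G) (hy : y ∈ H), y ∈ D₁ ↔ (x : G)⁻¹ * y * x ∈ D := by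
    intro y hy
    have h1 : (⟨y, hy⟩ : H) ∈ D₁.subgroupOf H ↔
        (MulAut.conj x).symm ⟨y, hy⟩ ∈ D.subgroupOf H := by
      rw [← hx, Subgroup.mem_map_equiv]
    rw [Subgroup.mem_subgroupOf, MulAut.conj_symm_apply, Subgroup.mem_subgroupOf] at h1
    exact h1
  have hxQ : (x : G) ∈ Subgroup.normalizer (Q : Set G) := hHQ x.2
  have hRQ : R₀.map (H ⊓ N).subtype = Q := by
    rw [← hD₁N]
    ext y
    rw [Subgroup.mem_inf]
    constructor
    · rintro ⟨h1, h2⟩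
      have hyH := hD₁H h1
      have h3 : (x : G)⁻¹ * y * x ∈ D ⊓ N :=
        Subgroup.mem_inf.mpr ⟨(hmem y hyH).mp h1,
          by simpa [mul_assoc] using hN.conj_mem y h2 (x : G)⁻¹⟩
      rw [hDN] at h3
      have h4 := (Subgroup.mem_normalizer_iff.mp hxQ ((x : G)⁻¹ * y * x)).mp h3
      have e : (x : G) * ((x : G)⁻¹ * y * x) * (x : G)⁻¹ = y := by group
      rwa [e] at h4
    · intro hq
      have hyH : y ∈ H := hQH hq
      have h3 : (x : G)⁻¹ * y * x ∈ Q := by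
        have h4 := (Subgroup.mem_normalizer_iff.mp (inv_mem hxQ) y).mp hq
        simpa using h4
      rw [← hDN] at h3
      exact ⟨(hmem y hyH).mpr (Subgroup.mem_inf.mp h3).1, hQN hq⟩
  refine ⟨_, he₁, ?_, hcov₁⟩
  have e : Q.subgroupOf (H ⊓ N) = R₀ := by
    rw [← hRsub]
    exact congrArg (fun X : Subgroup G => X.subgroupOf (H ⊓ N)) hRQ.symm
  rw [e]
  exact hR₀

/-- two blocks of `N` with defect group `Q` covered by the same block of `G` are conjugate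
under `N_G(Q)` -/
theorem hk_conj (hM : IsPModular p M) (N : Subgroup G) [hN : N.Normal] [Fintype N]
    (Q : Subgroup G) (hQN : Q ≤ N) (B : Set (IrrCharacter G)) (hB : IsPBlock M B)
    (d d₁ : Set (IrrCharacter N)) (hd : IsPBlock M d) (hd₁ : IsPBlock M d₁)
    (hdQ : IsDefectGroup p M d (Q.subgroupOf N)) (hd₁Q : IsDefectGroup p M d₁ (Q.subgroupOf N))
    (hcov : ∃ χ ∈ B, ∃ θ ∈ d, classInner (fun n : N => (χ : G → ℂ) n) (θ : N → ℂ) ≠ 0)
    (hcov₁ : ∃ χ ∈ B, ∃ θ ∈ d₁, classInner (fun n : N => (χ : G → ℂ) n) (θ : N → ℂ) ≠ 0) :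
    ∃ h ∈ Subgroup.normalizer (Q : Set G), d₁ = irrMap (cjN N h).symm '' d := by
  classical
  obtain ⟨χ₀, hχ₀, θ₀, hθ₀, hcon₀⟩ := hcov
  obtain ⟨χ₁, hχ₁, θ₁, hθ₁, hcon₁⟩ := hcov₁
  obtain ⟨g₀, θ', hθ', hconj⟩ := Cfsg.Agent.S0964.result p M hM N B hB d hd χ₀ hχ₀ θ₀ hθ₀ hcon₀
    χ₁ hχ₁ θ₁ hcon₁
  have e1 : θ₁ = irrMap (cjN N g₀).symm θ' := by
    apply Subtype.ext
    funext n
    rw [hconj n]
    rfl
  have hd₁' : d₁ = irrMap (cjN N g₀).symm '' d :=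
    block_eq_of_mem_of_mem hM hd₁ (isPBlock_image_irrMap _ hd) θ₁ hθ₁ ⟨θ', hθ', e1.symm⟩
  have hdef := isDefectGroup_image_irrMap (M := M) (p := p) (cjN N g₀).symm d _ hdQ
  rw [← hd₁'] at hdef
  obtain ⟨m, hm⟩ := defectGroup_conj hM d₁ hd₁ _ (Q.subgroupOf N) hdef hd₁Q
  have hkey : ∀ y : N, (y : G) ∈ Q ↔ g₀ * ((m : G)⁻¹ * y * m) * g₀⁻¹ ∈ Q := by
    intro y
    have h1 : y ∈ Q.subgroupOf N ↔ (cjN N g₀) ((MulAut.conj m).symm y) ∈ Q.subgroupOf N := by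
      conv_lhs => rw [← hm]
      rw [Subgroup.mem_map_equiv, Subgroup.mem_map_equiv, MulEquiv.symm_symm]
    rw [Subgroup.mem_subgroupOf, Subgroup.mem_subgroupOf] at h1
    exact h1
  have hh : g₀ * (m : G)⁻¹ ∈ Subgroup.normalizer (Q : Set G) := by
    rw [Subgroup.mem_normalizer_iff]
    intro q
    have e : g₀ * (m : G)⁻¹ * q * (g₀ * (m : G)⁻¹)⁻¹ = g₀ * ((m : G)⁻¹ * q * m) * g₀⁻¹ := by
      group
    rw [e]
    by_cases hqN : q ∈ N
    · exact hkey ⟨q, hqN⟩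
    · constructor
      · intro hq
        exact absurd (hQN hq) hqN
      · intro hq
        exfalso
        apply hqN
        have h1 : g₀ * ((m : G)⁻¹ * q * m) * g₀⁻¹ ∈ N := hQN hq
        have h2 := hN.conj_mem _ h1 ((m : G) * g₀⁻¹)
        have e' : (m : G) * g₀⁻¹ * (g₀ * ((m : G)⁻¹ * q * m) * g₀⁻¹) * ((m : G) * g₀⁻¹)⁻¹ =
            q := by group
        rwa [e'] at h2
  refine ⟨g₀ * (m : G)⁻¹, hh, ?_⟩
  rw [hd₁']
  have e2 : ∀ θ : IrrCharacter N,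
      irrMap (cjN N g₀).symm θ = irrMap (cjN N (g₀ * (m : G)⁻¹)).symm θ := by
    intro θ
    apply Subtype.ext
    funext n
    show (θ : N → ℂ) (cjN N g₀ n) = (θ : N → ℂ) (cjN N (g₀ * (m : G)⁻¹) n)
    have hcf := isClassFunction_irr θ (cjN N g₀ n) (cjN N g₀ m⁻¹)
    rw [← hcf]
    refine congrArg (θ : N → ℂ) ?_
    apply Subtype.ext
    show g₀ * ((m⁻¹ : N) : G) * g₀⁻¹ * (g₀ * n * g₀⁻¹) * (g₀ * ((m⁻¹ : N) : G) * g₀⁻¹)⁻¹ =
      g₀ * (m : G)⁻¹ * n * (g₀ * (m : G)⁻¹)⁻¹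
    rw [Subgroup.coe_inv]
    group
  exact Set.image_congr (fun θ _ => e2 θ)

/-- existence half of the second part of Harris–Knörr -/
theorem hk_part2 (hM : IsPModular p M) (N : Subgroup G) [hN : N.Normal] [Fintype N]
    (Q : Subgroup G) (hQ : IsPGroup p Q) (hQN : Q ≤ N)
    [Fintype ↥(Subgroup.normalizer (Q : Set G) ⊓ N)]
    (d : Set (IrrCharacter N)) (hd : IsPBlock M d)
    (hdQ : IsDefectGroup p M d (Q.subgroupOf N))
    (e : Set (IrrCharacter ↥(Subgroup.normalizer (Q : Set G) ⊓ N)))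
    (heQ : IsDefectGroup p M e (Q.subgroupOf (Subgroup.normalizer (Q : Set G) ⊓ N)))
    (hed : IsInducedBlockIn M N (Subgroup.normalizer (Q : Set G) ⊓ N) e d)
    (B : Set (IrrCharacter G)) (hB : IsPBlock M B)
    (hcovB : ∃ χ ∈ B, ∃ θ ∈ d, classInner (fun n : N => (χ : G → ℂ) n) (θ : N → ℂ) ≠ 0) :
    ∃ c : Set (IrrCharacter ↥(Subgroup.normalizer (Q : Set G))), IsPBlock M c ∧
      (∃ ψ ∈ c, ∃ ξ ∈ e, classInner (fun l : ↥(Subgroup.normalizer (Q : Set G) ⊓ N) =>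
        (ψ : ↥(Subgroup.normalizer (Q : Set G)) → ℂ) (Subgroup.inclusion inf_le_left l))
        (ξ : ↥(Subgroup.normalizer (Q : Set G) ⊓ N) → ℂ) ≠ 0) ∧
      IsInducedBlock M (Subgroup.normalizer (Q : Set G)) c B := by
  classical
  obtain ⟨D, hDB, hDN⟩ := Cfsg.Agent.S4438.result p M hM N d hd Q hQN hdQ B hB hcovB
  have hNH := normalizer_le_of_inf_eq N D Q hDN
  have hDp : IsPGroup p D := isDefectGroup_isPGroup B D hDB
  obtain ⟨b, hb, hbD, hbB, -⟩ := fmt_down hM D hDp B hB hDB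
  obtain ⟨c, hc, hcD, hbc⟩ := fmt_up_sub hM D (Subgroup.normalizer (Q : Set G)) hDp hNH b hb hbD
  have hcB : IsInducedBlock M (Subgroup.normalizer (Q : Set G)) c B := by
    have h1 : IndHom M ((Subgroup.normalizer (Q : Set G)).subtype.comp (Subgroup.inclusion hNH))
        b B := by
      rw [subtype_comp_inclusion]
      exact hbB
    exact IndHom.of_comp hM hbc h1
  obtain ⟨e₁, he₁, he₁Q, hcov₁⟩ := hk_exists_covered hM N Q hQN (Subgroup.normalizer (Q : Set G))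
    le_rfl Subgroup.le_normalizer c hc D hcD hDN
  obtain ⟨d₁, hd₁, hd₁Q, he₁d₁⟩ := fmt_in_exists hM N Q hQ hQN e₁ he₁ he₁Q
  have hcovB₁ := cover_transfer hM N (Subgroup.normalizer (Q : Set G)) c e₁ d₁ B hcov₁ hcB he₁d₁
  obtain ⟨h, hh, hd₁eq⟩ := hk_conj hM N Q hQN B hB d d₁ hd hd₁ hdQ hd₁Q hcovB hcovB₁
  have he₂d₁ : IsInducedBlockIn M N (Subgroup.normalizer (Q : Set G) ⊓ N)
      (irrMap (cjK N (Subgroup.normalizer (Q : Set G)) h hh).symm '' e) d₁ := by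
    rw [hd₁eq]
    exact induced_in_conj N (Subgroup.normalizer (Q : Set G)) h hh e d hed
  have he₂Q := defect_cjK (M := M) (p := p) N (Subgroup.normalizer (Q : Set G)) Q h hh hh e heQ
  have hee := fmt_in_unique hM N Q hQ hQN d₁ e₁ _ he₁Q he₂Q he₁d₁ he₂d₁
  refine ⟨c, hc, ?_, hcB⟩
  obtain ⟨ψ, hψ, ξ₁, hξ₁, hcon⟩ := hcov₁
  rw [hee] at hξ₁
  obtain ⟨ξ, hξ, rfl⟩ := hξ₁
  refine ⟨ψ, hψ, ξ, hξ, ?_⟩
  have h1 := Cfsg.Agent.Lib.Helper20.classInner_comp_equiv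
    (cjK N (Subgroup.normalizer (Q : Set G)) h hh)
    (fun l : ↥(Subgroup.normalizer (Q : Set G) ⊓ N) =>
      (ψ : ↥(Subgroup.normalizer (Q : Set G)) → ℂ) (Subgroup.inclusion inf_le_left l))
    (ξ : ↥(Subgroup.normalizer (Q : Set G) ⊓ N) → ℂ)
  rw [← h1]
  have e1 : (fun a : ↥(Subgroup.normalizer (Q : Set G) ⊓ N) =>
      (fun l : ↥(Subgroup.normalizer (Q : Set G) ⊓ N) =>
        (ψ : ↥(Subgroup.normalizer (Q : Set G)) → ℂ) (Subgroup.inclusion inf_le_left l))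
        (cjK N (Subgroup.normalizer (Q : Set G)) h hh a)) =
      fun l : ↥(Subgroup.normalizer (Q : Set G) ⊓ N) =>
        (ψ : ↥(Subgroup.normalizer (Q : Set G)) → ℂ) (Subgroup.inclusion inf_le_left l) := by
    funext a
    have hcf := isClassFunction_irr ψ (Subgroup.inclusion inf_le_left a) ⟨h, hh⟩
    rw [← hcf]
    refine congrArg (ψ : ↥(Subgroup.normalizer (Q : Set G)) → ℂ) ?_
    exact Subtype.ext rfl
  rw [e1]
  exact hcon

end hk3

end Cfsg.Agent.Lib.Helper84
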