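import Cfsg.Agent.Lib.Helper22.IndBlock
import Cfsg.Agent.Lib.Helper22.BlockPart
import Cfsg.Agent.Lib.Helper22.HeightZero
import Cfsg.Agent.Lib.Helper22.IndDefect
import Cfsg.Agent.Lib.Helper79.Blk2
import Cfsg.Agent.Lib.Helper83.IrrBasic

set_option autoImplicit false

namespace Cfsg.Agent.Lib.Helper84

open Cfsg Cfsg.Agent.Lib Cfsg.Agent.Lib.Helper21
open scoped ComplexConjugate

universe u

section arith

variable {p : ℕ} {M : Ideal AlgInt}

/-- a quotient of naturals with strictly larger valuation upstairs lies in the local ideal -/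
theorem locIdeal_natCast_div (hM : IsPModular p M) (a b : ℕ) (ha : a ≠ 0) (hb : b ≠ 0)
    (h : b.factorization p < a.factorization p) : MemLocalIdeal M ((a : ℂ) / (b : ℂ)) := by
  have hp := pmod_prime hM
  have hpb : p * b ≠ 0 := mul_ne_zero hp.ne_zero hb
  have hfac : (p * b).factorization p = b.factorization p + 1 := by
    rw [Nat.factorization_mul hp.ne_zero hb, Finsupp.add_apply, hp.factorization_self]
    ring
  have h1 := Helper22.locRing_natCast_div hM a (p * b) ha hpb (by rw [hfac]; omega)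
  have hpc : (p : ℂ) ≠ 0 := by exact_mod_cast hp.ne_zero
  have hbc : (b : ℂ) ≠ 0 := by exact_mod_cast hb
  have h2 : (a : ℂ) / (b : ℂ) = ((p : ℕ) : ℂ) * ((a : ℂ) / ((p * b : ℕ) : ℂ)) := by
    push_cast
    field_simp
  rw [h2]
  exact locIdeal_mul_right hM ((locIdeal_natCast_iff hM p).mpr dvd_rfl) h1

theorem nat_div_locIdeal (hM : IsPModular p M) (n d : ℕ) (hd : d ≠ 0)
    (h : MemLocalIdeal M ((n : ℂ) / (d : ℂ))) :
    n = 0 ∨ d.factorization p < n.factorization p := by
  by_contra hcon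
  push Not at hcon
  obtain ⟨hn, hle⟩ := hcon
  have h1 := Helper22.locRing_natCast_div hM d n hd hn hle
  have h2 := locIdeal_mul_right hM h h1
  have hnc : (n : ℂ) ≠ 0 := by exact_mod_cast hn
  have hdc : (d : ℂ) ≠ 0 := by exact_mod_cast hd
  have h3 : (n : ℂ) / (d : ℂ) * ((d : ℂ) / (n : ℂ)) = 1 := by field_simp
  rw [h3] at h2
  exact locIdeal_one_not hM h2

theorem nat_div_sub_one_locIdeal (hM : IsPModular p M) (n d : ℕ) (hd : d ≠ 0)
    (h : MemLocalIdeal M ((n : ℂ) / (d : ℂ) - 1)) :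
    n ≠ 0 ∧ n.factorization p = d.factorization p := by
  have hdc : (d : ℂ) ≠ 0 := by exact_mod_cast hd
  have hn : n ≠ 0 := by
    rintro rfl
    have h1 : ((0 : ℕ) : ℂ) / (d : ℂ) - 1 = -1 := by simp
    rw [h1] at h
    have h2 := locIdeal_neg h
    rw [neg_neg] at h2
    exact locIdeal_one_not hM h2
  have hnc : (n : ℂ) ≠ 0 := by exact_mod_cast hn
  refine ⟨hn, ?_⟩
  rcases lt_trichotomy (n.factorization p) (d.factorization p) with hlt | heq | hgt
  · exfalso
    have h1 := locIdeal_natCast_div hM d n hd hn hlt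
    have h2 : MemLocalRing M ((n : ℂ) / (d : ℂ)) := by
      have h3 := locRing_add hM (locIdeal_locRing h) (locRing_one hM)
      rwa [sub_add_cancel] at h3
    have h4 := locIdeal_mul_left hM h2 h1
    have h5 : (n : ℂ) / (d : ℂ) * ((d : ℂ) / (n : ℂ)) = 1 := by field_simp
    rw [h5] at h4
    exact locIdeal_one_not hM h4
  · exact heq
  · exfalso
    have h1 := locIdeal_natCast_div hM n d hn hd hgt
    have h2 := locIdeal_sub hM h1 h
    rw [sub_sub_cancel] at h2
    exact locIdeal_one_not hM h2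

end arith

section ind

variable {G : Type u} [Group G] [Fintype G]

/-- the value at `1` of the block part of a character is a natural number -/
theorem blockPart_one_nat (B : Set (IrrCharacter G)) (θ : G → ℂ) (hθ : IsCharacter G θ) :
    ∃ n : ℕ, blockPart B θ 1 = (n : ℂ) := by
  classical
  haveI := Helper4.irr_finite (G := G)
  letI : Fintype (IrrCharacter G) := Fintype.ofFinite _
  have hex : ∀ χ : IrrCharacter G, ∃ k : ℕ,
      @classInner G _ (Fintype.ofFinite G) θ (χ : G → ℂ) * (χ : G → ℂ) 1 = (k : ℂ) := by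
    intro χ
    have hinst : (Fintype.ofFinite G) = (inferInstance : Fintype G) := Subsingleton.elim _ _
    rw [hinst]
    obtain ⟨k, hk⟩ := Helper4.classInner_isCharacter_isCharacter_nat θ (χ : G → ℂ) hθ
      (Helper4.isCharacter_of_irr χ)
    obtain ⟨-, hd⟩ := Helper83.irr_degree χ.2
    refine ⟨k * charDegree (χ : G → ℂ), ?_⟩
    rw [hk, hd]
    push_cast
    rfl
  choose k hk using hex
  refine ⟨∑ χ ∈ Finset.univ.filter (· ∈ B), k χ, ?_⟩
  show ∑ᶠ χ ∈ B, @classInner G _ (Fintype.ofFinite G) θ (χ : G → ℂ) * (χ : G → ℂ) 1 = _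
  rw [Helper79.finsum_mem_eq_sum_filter_univ, Nat.cast_sum]
  exact Finset.sum_congr rfl fun χ _ => hk χ

/-- the block part at `1` through the block idempotent -/
theorem blockPart_one_eq_omega (B : Set (IrrCharacter G)) (θ : G → ℂ)
    (hθ : IsClassFunction G θ) (h1 : θ 1 ≠ 0) :
    blockPart B θ 1 = omega θ (blockCoeff B) * θ 1 := by
  rw [Helper22.blockPart_eq_sum B θ hθ 1, omega_def, div_mul_cancel₀ _ h1]
  have hinst : (Fintype.ofFinite G) = (inferInstance : Fintype G) := Subsingleton.elim _ _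
  rw [hinst]
  refine Finset.sum_congr rfl fun k _ => ?_
  rw [mul_one]

/-- S4430: block parts of a character induced from a block whose induced block is `B₀` -/
theorem ind_blockPart (p : ℕ) [hp : Fact p.Prime] (M : Ideal AlgInt) (hM : IsPModular p M)
    (H : Subgroup G) [Fintype H] (b : Set (IrrCharacter H)) (B₀ : Set (IrrCharacter G))
    (hind : IsInducedBlock M H b B₀) (ξ : IrrCharacter H) (hξ : ξ ∈ b) :
    (∃ n : ℕ, blockPart B₀ (indFun H (ξ : H → ℂ)) 1 = (n : ℂ) ∧ n ≠ 0 ∧
      n.factorization p = (charDegree (indFun H (ξ : H → ℂ))).factorization p) ∧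
    ∀ B : Set (IrrCharacter G), IsPBlock M B → B ≠ B₀ →
      ∃ n : ℕ, blockPart B (indFun H (ξ : H → ℂ)) 1 = (n : ℂ) ∧
        (n = 0 ∨ (charDegree (indFun H (ξ : H → ℂ))).factorization p < n.factorization p) := by
  classical
  set θ : G → ℂ := indFun H (ξ : H → ℂ) with hθdef
  have hθc : IsCharacter G θ := Helper4.isCharacter_indFun H _ (Helper4.isCharacter_of_irr ξ)
  have hθcf : IsClassFunction G θ := Helper4.isClassFunction_indFun H _
  obtain ⟨hξpos, hξd⟩ := Helper83.irr_degree ξ.2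
  -- the degree
  have hcardH : (Nat.card H : ℂ) ≠ 0 := by
    exact_mod_cast (Nat.card_pos (α := H)).ne'
  have hidx : (Nat.card G : ℂ) = (Nat.card H : ℂ) * (H.index : ℂ) := by
    rw [← Nat.cast_mul, Subgroup.card_mul_index]
  have hθ1 : θ 1 = ((H.index * charDegree (ξ : H → ℂ) : ℕ) : ℂ) := by
    rw [hθdef, Helper22.indFun_one_card, hξd, hidx]
    push_cast
    field_simp
  have hidxpos : 0 < H.index := Nat.pos_of_ne_zero Subgroup.index_ne_zero_of_finite
  set d := H.index * charDegree (ξ : H → ℂ) with hddef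
  have hdpos : 0 < d := Nat.mul_pos hidxpos hξpos
  have hdeg : charDegree θ = d := by
    unfold charDegree
    rw [hθ1, Complex.natCast_re, Nat.floor_natCast]
  have hθ1ne : θ 1 ≠ 0 := by
    rw [hθ1]; exact_mod_cast hdpos.ne'
  have hdc : (d : ℂ) ≠ 0 := by exact_mod_cast hdpos.ne'
  -- a member of B₀
  obtain ⟨hbblk, hB₀blk, hcong⟩ := hind
  obtain ⟨χ₀, hχ₀⟩ := hB₀blk
  have hχ₀mem : χ₀ ∈ B₀ := by rw [hχ₀]; exact Helper79.mem_blockOf_self hM χ₀
  have hB₀blk' : IsPBlock M B₀ := ⟨χ₀, hχ₀⟩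
  have hind' : IsInducedBlock M H b B₀ := ⟨hbblk, hB₀blk', hcong⟩
  have key : ∀ B : Set (IrrCharacter G), IsPBlock M B →
      MemLocalIdeal M (omega θ (blockCoeff B) - (if χ₀ ∈ B then (1 : ℂ) else 0)) := by
    intro B hB
    have h1 := Helper22.omega_indFun_sub_locIdeal hM H b B₀ hind' ξ hξ χ₀ hχ₀mem (blockCoeff B)
      (blockCoeff_isClassFunction B) (fun g => osima hM B hB g)
    rwa [omega_blockCoeff] at h1
  constructor
  · obtain ⟨n, hn⟩ := blockPart_one_nat B₀ θ hθc
    have h1 := key B₀ hB₀blk'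
    rw [if_pos hχ₀mem] at h1
    have h2 : omega θ (blockCoeff B₀) = (n : ℂ) / (d : ℂ) := by
      have h3 := blockPart_one_eq_omega B₀ θ hθcf hθ1ne
      rw [hn, hθ1] at h3
      rw [h3]
      field_simp
    rw [h2] at h1
    obtain ⟨hn0, hfac⟩ := nat_div_sub_one_locIdeal hM n d hdpos.ne' h1
    exact ⟨n, hn, hn0, by rw [hdeg]; exact hfac⟩
  · intro B hB hne
    obtain ⟨n, hn⟩ := blockPart_one_nat B θ hθc
    have hχ₀B : χ₀ ∉ B := by
      intro hmem
      apply hne
      rw [Helper79.blockOf_eq_of_mem hM hB hmem, hχ₀]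
    have h1 := key B hB
    rw [if_neg hχ₀B, sub_zero] at h1
    have h2 : omega θ (blockCoeff B) = (n : ℂ) / (d : ℂ) := by
      have h3 := blockPart_one_eq_omega B θ hθcf hθ1ne
      rw [hn, hθ1] at h3
      rw [h3]
      field_simp
    rw [h2] at h1
    refine ⟨n, hn, ?_⟩
    rw [hdeg]
    exact nat_div_locIdeal hM n d hdpos.ne' h1

end ind

end Cfsg.Agent.Lib.Helper84
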