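import Cfsg.Agent.Lib.Helper84.IndBlk
import Cfsg.Agent.Lib.Helper84.PReg6

set_option autoImplicit false

namespace Cfsg.Agent.Lib.Helper84

open Cfsg Cfsg.Agent.Lib Cfsg.Agent.Lib.Helper21
open scoped ComplexConjugate

universe u

section ind2

variable {G : Type u} [Group G] [Fintype G]

/-- the class function `conj χ` on the `p`-regular elements, zero elsewhere -/
noncomputable def cregFun (p : ℕ) (χ : G → ℂ) : G → ℂ := fun g =>
  if p ∣ orderOf g then 0 else conj (χ g)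

omit [Fintype G] in
theorem cregFun_isClassFunction [Finite G] (p : ℕ) (χ : IrrCharacter G) :
    IsClassFunction G (cregFun p (χ : G → ℂ)) := by
  intro g k
  have ho : orderOf (k * g * k⁻¹) = orderOf g := (MulAut.conj k).orderOf_eq g
  show (if p ∣ orderOf (k * g * k⁻¹) then 0 else conj ((χ : G → ℂ) (k * g * k⁻¹))) =
    (if p ∣ orderOf g then 0 else conj ((χ : G → ℂ) g))
  rw [ho, Helper4.isClassFunction_irr χ g k]

theorem cregFun_locRing (p : ℕ) (M : Ideal AlgInt) (hM : IsPModular p M) (χ : IrrCharacter G)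
    (g : G) : MemLocalRing M (cregFun p (χ : G → ℂ) g) := by
  show MemLocalRing M (if p ∣ orderOf g then 0 else conj ((χ : G → ℂ) g))
  split_ifs
  · exact locRing_zero hM
  · exact locRing_of_isIntegral hM
      (map_isIntegral_int (starRingEnd ℂ) (Helper4.irr_isIntegral χ _))

/-- `ω_{χ₀}` on the truncated conjugate of `χ` -/
theorem omega_cregFun (p : ℕ) [hp : Fact p.Prime] (χ₀ χ : IrrCharacter G) :
    omega (χ₀ : G → ℂ) (cregFun p (χ : G → ℂ)) =
      classInner (ptil p (χ₀ : G → ℂ)) (χ : G → ℂ) *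
        ((Nat.card G / p ^ (Nat.card G).factorization p : ℕ) : ℂ) / (χ₀ : G → ℂ) 1 := by
  rw [omega_def, ptil_inner_mul]
  congr 1
  refine Finset.sum_congr rfl fun g _ => ?_
  show (if p ∣ orderOf g then 0 else conj ((χ : G → ℂ) g)) * (χ₀ : G → ℂ) g = _
  by_cases hg : p ∣ orderOf g
  · rw [if_pos hg, if_pos hg, zero_mul]
  · rw [if_neg hg, if_neg hg, mul_comm]

/-- the inner product over the subgroup as a central character value -/
theorem omega_res_cregFun (p : ℕ) [hp : Fact p.Prime] (H : Subgroup G) [Fintype H]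
    (χ : IrrCharacter G) (ψ : IrrCharacter H) :
    omega (ψ : H → ℂ) (fun h : H => cregFun p (χ : G → ℂ) (h : G)) =
      classInner (fun h : H => if p ∣ orderOf h then (0 : ℂ)
          else ((p ^ (Nat.card H).factorization p : ℕ) : ℂ) * (χ : G → ℂ) h) (ψ : H → ℂ) /
        (ψ : H → ℂ) 1 * ((Nat.card H / p ^ (Nat.card H).factorization p : ℕ) : ℂ) := by
  have h1 := ptil_inner_mul (G := H) p (fun h : H => (χ : G → ℂ) h) (ψ : H → ℂ)
  have h2 : classInner (fun h : H => if p ∣ orderOf h then (0 : ℂ)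
      else ((p ^ (Nat.card H).factorization p : ℕ) : ℂ) * (χ : G → ℂ) h) (ψ : H → ℂ) =
      classInner (ptil p (fun h : H => (χ : G → ℂ) h)) (ψ : H → ℂ) := rfl
  rw [h2, div_mul_eq_mul_div, h1, omega_def]
  congr 1
  rw [← Equiv.sum_comp (Equiv.inv H)]
  refine Finset.sum_congr rfl fun h _ => ?_
  simp only [Equiv.inv_apply, orderOf_inv]
  show (if p ∣ orderOf ((h⁻¹ : H) : G) then 0 else conj ((χ : G → ℂ) ((h⁻¹ : H) : G))) *
    (ψ : H → ℂ) h⁻¹ = _
  have ho : orderOf ((h⁻¹ : H) : G) = orderOf h := by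
    rw [Subgroup.orderOf_coe, orderOf_inv]
  rw [ho]
  by_cases hg : p ∣ orderOf h
  · rw [if_pos hg, if_pos hg, zero_mul]
  · rw [if_neg hg, if_neg hg, irr_inv_conj ψ h]
    have h3 : (χ : G → ℂ) ((h⁻¹ : H) : G) = conj ((χ : G → ℂ) (h : G)) := by
      rw [Subgroup.coe_inv, irr_inv_conj χ (h : G)]
    rw [h3, Complex.conj_conj]

/-- S4431 -/
theorem ind_ptil (p : ℕ) [hp : Fact p.Prime] (M : Ideal AlgInt) (hM : IsPModular p M)
    (H : Subgroup G) [Fintype H] (b : Set (IrrCharacter H)) (B₀ : Set (IrrCharacter G))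
    (hind : IsInducedBlock M H b B₀) (χ : IrrCharacter G) (ψ : IrrCharacter H) (hψ : ψ ∈ b) :
    (χ ∉ B₀ → MemLocalIdeal M (classInner (fun h : H => if p ∣ orderOf h then (0 : ℂ)
        else ((p ^ (Nat.card H).factorization p : ℕ) : ℂ) * (χ : G → ℂ) h) (ψ : H → ℂ) /
          (ψ : H → ℂ) 1)) ∧
    (χ ∈ B₀ → blockHeight p B₀ (χ : G → ℂ) = 0 →
      ¬ MemLocalIdeal M (classInner (fun h : H => if p ∣ orderOf h then (0 : ℂ)
        else ((p ^ (Nat.card H).factorization p : ℕ) : ℂ) * (χ : G → ℂ) h) (ψ : H → ℂ) /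
          (ψ : H → ℂ) 1)) := by
  classical
  haveI := Helper4.irr_finite (G := G)
  letI : Fintype (IrrCharacter G) := Fintype.ofFinite _
  set X : ℂ := classInner (fun h : H => if p ∣ orderOf h then (0 : ℂ)
        else ((p ^ (Nat.card H).factorization p : ℕ) : ℂ) * (χ : G → ℂ) h) (ψ : H → ℂ) /
          (ψ : H → ℂ) 1 with hX
  have hcardH : (Nat.card H : ℕ) ≠ 0 := (Nat.card_pos).ne'
  have hmH : ¬ p ∣ Nat.card H / p ^ (Nat.card H).factorization p :=
    Nat.not_dvd_ordCompl hp.out hcardH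
  set mH := Nat.card H / p ^ (Nat.card H).factorization p with hmHdef
  have hmHc : (mH : ℂ) ≠ 0 := by
    intro h0
    have : mH = 0 := by exact_mod_cast h0
    rw [this] at hmH
    exact hmH (dvd_zero p)
  have hA := cregFun_isClassFunction p χ
  have hres := omega_res_cregFun p H χ ψ
  have hindres := Helper22.omega_indFun_res H (ψ : H → ℂ) (cregFun p (χ : G → ℂ)) hA
  have hXeq : omega (indFun H (ψ : H → ℂ)) (cregFun p (χ : G → ℂ)) = X * (mH : ℂ) := by
    rw [hindres, hres]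
  obtain ⟨hbblk, hB₀blk, hcong⟩ := hind
  have hind' : IsInducedBlock M H b B₀ := ⟨hbblk, hB₀blk, hcong⟩
  have key : ∀ χ₀ : IrrCharacter G, χ₀ ∈ B₀ →
      MemLocalIdeal M (X * (mH : ℂ) - omega (χ₀ : G → ℂ) (cregFun p (χ : G → ℂ))) := by
    intro χ₀ hχ₀
    have h1 := Helper22.omega_indFun_sub_locIdeal hM H b B₀ hind' ψ hψ χ₀ hχ₀
      (cregFun p (χ : G → ℂ)) hA (fun g => cregFun_locRing p M hM χ g)
    rwa [hXeq] at h1
  constructor
  · intro hχ
    obtain ⟨χ₀, hχ₀⟩ := hB₀blk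
    have hχ₀mem : χ₀ ∈ B₀ := by rw [hχ₀]; exact Helper79.mem_blockOf_self hM χ₀
    have h1 := key χ₀ hχ₀mem
    have h2 : classInner (ptil p (χ₀ : G → ℂ)) (χ : G → ℂ) = 0 :=
      preg_inner_zero p M hM B₀ ⟨χ₀, hχ₀⟩ χ₀ hχ₀mem χ hχ
    rw [omega_cregFun, h2, zero_mul, zero_div, sub_zero] at h1
    have h3 := locIdeal_mul_right hM h1 (locRing_inv_natCast hM hmH)
    rwa [mul_assoc, mul_inv_cancel₀ hmHc, mul_one] at h3
  · intro hχ hht hmem
    have h1 := key χ hχ
    have h2 : MemLocalIdeal M (X * (mH : ℂ)) :=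
      locIdeal_mul_right hM hmem (locRing_natCast hM mH)
    have h3 := locIdeal_sub hM h2 h1
    rw [sub_sub_cancel, omega_cregFun] at h3
    obtain ⟨z', hz'⟩ := preg_coeff p χ χ
    have hz'' : classInner (ptil p (χ : G → ℂ)) (χ : G → ℂ) =
      ((p ^ (charDegree (χ : G → ℂ)).factorization p : ℕ) : ℂ) * (z' : ℂ) := hz'
    have h4 := (ptil_unit_iff p M hM χ χ z' hz'').mp h3
    have h5 := ((ptil_height_zero p M hM B₀ hB₀blk χ hχ).2.mp hht) χ hχ
    exact (padic_cond_iff p _ _ z' hz'').mp h5 h4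

end ind2

end Cfsg.Agent.Lib.Helper84
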