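import Mathlib
import Cfsg.Agent.Lib.Helper78.JNDefs

/-!
# S2944 project JN, piece NC (helper84): some member of `𝒮` does not centralize `y` modulo `C`
-/

set_option autoImplicit false

namespace Cfsg.Agent.Lib.Helper84.JN

open Cfsg.Agent.Lib.Helper78.JN Cfsg.Agent.Lib.Helper72.JL Cfsg.Agent.Lib.Helper72.SC
  Cfsg.Agent.Lib.Helper78.Jc
open scoped commutatorElement

universe u

theorem nc : NcStmt.{u} := by
  intro X _ C K O 𝒮 y hC hOC hyK hK hcomm hKC
  by_contra hcon
  have hall : ∀ A ∈ 𝒮, ∀ a ∈ A, a * y * a⁻¹ * y⁻¹ ∈ C := by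
    intro A hA a ha
    by_contra h
    exact hcon ⟨A, hA, a, ha, h⟩
  have : C.Normal := hC
  have hπ : ∀ x : X, (QuotientGroup.mk' C) x = 1 ↔ x ∈ C := fun x => QuotientGroup.eq_one_iff x
  have hle : sSup 𝒮 ≤
      (Subgroup.centralizer {(QuotientGroup.mk' C) y}).comap (QuotientGroup.mk' C) := by
    apply sSup_le
    intro A hA a ha
    rw [Subgroup.mem_comap, Subgroup.mem_centralizer_iff]
    intro h hh
    rw [Set.mem_singleton_iff] at hh
    subst hh
    have h1 := (hπ _).mpr (hall A hA a ha)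
    rw [map_mul, map_mul, map_mul, map_inv, map_inv] at h1
    have h2 : (QuotientGroup.mk' C) a * (QuotientGroup.mk' C) y =
        (QuotientGroup.mk' C) y * (QuotientGroup.mk' C) a := by
      generalize (QuotientGroup.mk' C) a = α at h1 ⊢
      generalize (QuotientGroup.mk' C) y = β at h1 ⊢
      have h3 : α * β = (α * β * α⁻¹ * β⁻¹) * (β * α) := by group
      rw [h3, h1, one_mul]
    exact h2.symm
  apply hKC
  rw [← hcomm, Subgroup.commutator_le]
  intro k hk j hj
  rw [← hπ, map_commutatorElement]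
  have hj' := hle hj
  rw [Subgroup.mem_comap, Subgroup.mem_centralizer_iff] at hj'
  have hjy : Commute ((QuotientGroup.mk' C) y) ((QuotientGroup.mk' C) j) :=
    hj' _ (Set.mem_singleton _)
  obtain ⟨o, ho, hk'⟩ := hK k hk
  have ho1 : (QuotientGroup.mk' C) o = 1 := (hπ o).mpr (hOC ho)
  rw [commutatorElement_eq_one_iff_commute]
  rcases hk' with rfl | rfl | rfl
  · rw [ho1]
    exact Commute.one_left _
  · rw [map_mul, ho1, mul_one]
    exact hjy
  · rw [map_mul, map_inv, ho1, mul_one]
    exact hjy.inv_left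

end Cfsg.Agent.Lib.Helper84.JN
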