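import Cfsg.Agent.Lib.Helper1.BrandtDim
import Cfsg.Agent.Lib.Helper22.Defect2
import Cfsg.Agent.Lib.Helper22.HeightZero
import Cfsg.Agent.Lib.Helper22.PPart
import Cfsg.Prelude.Def_BrauerPairs
import Cfsg.Prelude.Def_BlockRank

/-!
# Kulshammer piece FUNC (helper84): symmetric functionals of a block with one Brauer character

`kuls_func_aux` is the assembly, with the two functional lemmas (FA, FB) as hypotheses.
-/

set_option autoImplicit false
set_option linter.style.haveILetI false
set_option linter.unusedSectionVars false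
set_option linter.unusedVariables false

namespace Cfsg.Agent.Lib.Helper84.Kuls

open Cfsg Cfsg.Agent.Lib.Helper21 Cfsg.Agent.Lib.Helper22 Cfsg.Agent.Lib.Helper1

universe u

theorem pRegularPart_of_reg {G : Type u} [Group G] (p : ℕ) (χ : G → ℂ) (g : G)
    (h : IsPRegular p g) : pRegularPart p χ g = χ g := by
  unfold pRegularPart
  exact if_pos h

theorem block_nonempty {p : ℕ} {M : Ideal AlgInt} (hM : IsPModular p M)
    {G : Type u} [Group G] (B : Set (IrrCharacter G)) (hB : IsPBlock M B) : B.Nonempty := by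
  obtain ⟨χ, rfl⟩ := hB
  refine ⟨χ, fun g => ?_⟩
  rw [sub_self]
  exact locIdeal_zero hM

theorem orderOf_conj_eq {G : Type u} [Group G] (t x : G) : orderOf (t * x * t⁻¹) = orderOf x :=
  MulEquiv.orderOf_eq (MulAut.conj t) x

theorem exists_ratio {p : ℕ} [Fact p.Prime] {M : Ideal AlgInt} (hM : IsPModular p M)
    {G : Type u} [Group G] [Fintype G]
    (B : Set (IrrCharacter G)) (hrank : blockRank p B = 1) (χ₀ : IrrCharacter G) (hχ₀ : χ₀ ∈ B)
    (hmin : ∀ χ ∈ B, (charDegree (χ₀ : G → ℂ)).factorization p ≤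
      (charDegree (χ : G → ℂ)).factorization p)
    (χ : IrrCharacter G) (hχ : χ ∈ B) :
    ∃ q : ℂ, MemLocalRing M q ∧
      ∀ g : G, IsPRegular p g → (χ : G → ℂ) g = q * (χ₀ : G → ℂ) g := by
  have h1reg : IsPRegular p (1 : G) := by
    unfold IsPRegular
    rw [orderOf_one]
    exact (Fact.out : p.Prime).not_dvd_one
  obtain ⟨n₀, hn₀, h10⟩ := Cfsg.Agent.Lib.Helper4.irr_one_nat χ₀
  obtain ⟨n, hn, h1⟩ := Cfsg.Agent.Lib.Helper4.irr_one_nat χ
  have hrank' : Module.finrank ℂ ↥(Submodule.span ℂ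
      ((fun χ : IrrCharacter G => pRegularPart p (χ : G → ℂ)) '' B)) = 1 := hrank
  have hv₀ : (⟨pRegularPart p (χ₀ : G → ℂ), Submodule.subset_span ⟨χ₀, hχ₀, rfl⟩⟩ :
      ↥(Submodule.span ℂ ((fun χ : IrrCharacter G => pRegularPart p (χ : G → ℂ)) '' B))) ≠ 0 := by
    intro h0
    have h2 := congrFun (congrArg Subtype.val h0) 1
    change pRegularPart p (χ₀ : G → ℂ) 1 = 0 at h2
    rw [pRegularPart_of_reg p _ _ h1reg, h10] at h2
    exact hn₀.ne' (by exact_mod_cast h2)
  obtain ⟨c, hc⟩ := (finrank_eq_one_iff_of_nonzero' _ hv₀).mp hrank'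
    ⟨pRegularPart p (χ : G → ℂ), Submodule.subset_span ⟨χ, hχ, rfl⟩⟩
  have hc' : ∀ g, c * pRegularPart p (χ₀ : G → ℂ) g = pRegularPart p (χ : G → ℂ) g := by
    intro g
    have := congrFun (congrArg Subtype.val hc) g
    exact this
  have hn0' : (n₀ : ℂ) ≠ 0 := by exact_mod_cast hn₀.ne'
  have hc1 : c = (n : ℂ) / (n₀ : ℂ) := by
    have := hc' 1
    rw [pRegularPart_of_reg p _ _ h1reg, pRegularPart_of_reg p _ _ h1reg, h10, h1] at this
    rw [eq_div_iff hn0']
    exact this
  refine ⟨c, ?_, fun g hg => ?_⟩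
  · rw [hc1]
    apply locRing_natCast_div hM n n₀ hn.ne' hn₀.ne'
    have := hmin χ hχ
    rwa [charDegree_eq_of_one_eq _ n₀ h10, charDegree_eq_of_one_eq _ n h1] at this
  · have := hc' g
    rw [pRegularPart_of_reg p _ _ hg, pRegularPart_of_reg p _ _ hg] at this
    exact this.symm

open scoped Classical in
theorem kuls_func_aux {p : ℕ} [Fact p.Prime] {M : Ideal AlgInt} (hM : IsPModular p M)
    {K : Type} [Field K] (res : ℂ → K)
    (hadd : ∀ x y, MemLocalRing M x → MemLocalRing M y → res (x + y) = res x + res y)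
    (hmul : ∀ x y, MemLocalRing M x → MemLocalRing M y → res (x * y) = res x * res y)
    (hone : res 1 = 1)
    (hzero : ∀ x, MemLocalRing M x → (res x = 0 ↔ MemLocalIdeal M x))
    {G : Type u} [Group G] [Fintype G] [DecidableEq G]
    (B : Set (IrrCharacter G)) (hB : IsPBlock M B) (hrank : blockRank p B = 1)
    (hspan : ∀ g₀ : G, IsPRegular p g₀ → ∃ c : IrrCharacter G → ℂ, (∀ χ, MemLocalRing M (c χ)) ∧
      ∀ g : G, IsPRegular p g →
        ∑ᶠ χ : IrrCharacter G, c χ * (χ : G → ℂ) g = if IsConj g g₀ then 1 else 0)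
    (hFA : ∀ φ : invAlg K G →ₗ[K] K, (∀ X Y, φ (X * Y) = φ (Y * X)) →
      (∀ X, IsNilpotent X → φ X = 0) →
      (∀ g h : G, φ (dl (h * g * h⁻¹)) = φ (dl g)) ∧
      (∀ s u : G, Commute s u → (∃ k : ℕ, orderOf u = p ^ k) → φ (dl (s * u)) = φ (dl s)) ∧
      (∀ X : invAlg K G, φ X = ∑ g : G, (X : Matrix G G K) g 1 * φ (dl g)))
    (hFB : ∀ (χ : IrrCharacter G) (a : G → ℂ),
      ∑ g : G, conv (blockCoeff B) a g * (χ : G → ℂ) g =
        if χ ∈ B then ∑ g : G, a g * (χ : G → ℂ) g else 0) :
    ∃ φ₀ : invAlg K G →ₗ[K] K, ∀ φ : invAlg K G →ₗ[K] K,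
      (∀ X Y, φ (X * Y) = φ (Y * X)) → (∀ X, IsNilpotent X → φ X = 0) →
      (∀ X, φ (eB res B * X) = φ X) → ∃ c : K, φ = c • φ₀ := by
  have hp : p.Prime := Fact.out
  haveI : Finite (IrrCharacter G) := Cfsg.Agent.Lib.Helper4.irr_finite
  let _ : Fintype (IrrCharacter G) := Fintype.ofFinite _
  let _ : Fintype (ConjClasses G) := Fintype.ofFinite _
  -- the character of minimal `p`-part of the degree
  obtain ⟨χ₀, hχ₀, hmin⟩ : ∃ χ₀ ∈ B, ∀ χ ∈ B, (charDegree (χ₀ : G → ℂ)).factorization p ≤
      (charDegree (χ : G → ℂ)).factorization p := by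
    have hne : ((fun χ : IrrCharacter G => (charDegree (χ : G → ℂ)).factorization p) '' B).Nonempty :=
      (block_nonempty hM B hB).image _
    obtain ⟨χ₀, hχ₀, h⟩ := Nat.sInf_mem hne
    exact ⟨χ₀, hχ₀, fun χ hχ => le_of_eq_of_le h (Nat.sInf_le ⟨χ, hχ, rfl⟩)⟩
  have hq := exists_ratio hM B hrank χ₀ hχ₀ hmin
  choose! q hq1 hq2 using hq
  have hloc : ∀ (χ : IrrCharacter G) (g : G), MemLocalRing M ((χ : G → ℂ) g) :=
    fun χ g => locRing_of_isIntegral hM (Cfsg.Agent.Lib.Helper4.irr_isIntegral χ g)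
  -- `p'`-parts
  have hpp : ∀ h : G, ∃ x y : G, x * y = h ∧ Commute x y ∧ (∃ k : ℕ, orderOf x = p ^ k) ∧
      IsPRegular p y ∧
      ∀ χ : IrrCharacter G, res ((χ : G → ℂ) h) = res ((χ : G → ℂ) y) := by
    intro h
    obtain ⟨x, y, hxy, hc, ⟨k, hk⟩, hy⟩ := exists_isPPart hp h
    refine ⟨x, y, hxy, hc, ⟨k, hk⟩, hy, fun χ => ?_⟩
    rw [← hxy]
    exact Cfsg.Agent.Lib.Helper82.res_eq_of_sub res hM hadd hzero (hloc _ _) (hloc _ _)
      (char_ppart_mul_congr hM χ x y hc k (by rw [← hk]; exact pow_orderOf_eq_one x) hy)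
  -- values on `B`
  have hB1 : ∀ χ ∈ B, ∀ h : G,
      res ((χ : G → ℂ) h) = res (q χ) * res ((χ₀ : G → ℂ) h) := by
    intro χ hχ h
    obtain ⟨x, y, -, -, -, hy, hres⟩ := hpp h
    rw [hres χ, hres χ₀, hq2 χ hχ y hy, hmul _ _ (hq1 χ hχ) (hloc _ _)]
  refine ⟨{ toFun := fun X => ∑ g : G, (X : Matrix G G K) g 1 * res ((χ₀ : G → ℂ) g)
            map_add' := ?_, map_smul' := ?_ }, ?_⟩
  · intro X Y
    simp only [Subalgebra.coe_add, Matrix.add_apply, add_mul, Finset.sum_add_distrib]
  · intro c X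
    simp only [Subalgebra.coe_smul, Matrix.smul_apply, smul_eq_mul, RingHom.id_apply,
      Finset.mul_sum, mul_assoc]
  intro φ hsym hnil hφB
  obtain ⟨hcl, hsu, hexp⟩ := hFA φ hsym hnil
  choose! c hc1 hc2 using hspan
  -- coefficients
  have hd : ∃ a : IrrCharacter G → K, ∀ g : G, IsPRegular p g →
      φ (dl g) = ∑ χ : IrrCharacter G, a χ * res ((χ : G → ℂ) g) := by
    refine ⟨fun χ => ∑ C : ConjClasses G,
      if IsPRegular p (Quotient.out C) then
        φ (dl (Quotient.out C)) * res (c (Quotient.out C) χ) else 0, ?_⟩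
    intro g hg
    have e1 : ∑ χ : IrrCharacter G, (∑ C : ConjClasses G,
        if IsPRegular p (Quotient.out C) then
          φ (dl (Quotient.out C)) * res (c (Quotient.out C) χ) else 0) * res ((χ : G → ℂ) g) =
        ∑ C : ConjClasses G, if IsPRegular p (Quotient.out C) then
          φ (dl (Quotient.out C)) * (if IsConj g (Quotient.out C) then (1 : K) else 0) else 0 := by
      simp only [Finset.sum_mul]
      rw [Finset.sum_comm]
      refine Finset.sum_congr rfl fun C _ => ?_
      by_cases hC : IsPRegular p (Quotient.out C)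
      · simp only [if_pos hC]
        have e2 := hc2 _ hC g hg
        rw [finsum_eq_sum_of_fintype] at e2
        have e3 := congrArg res e2
        rw [Cfsg.Agent.Lib.Helper82.res_sum res hM hadd hzero _ _
          (fun χ _ => locRing_mul hM (hc1 _ hC χ) (hloc χ g))] at e3
        have e4 : ∑ χ : IrrCharacter G,
            φ (dl (Quotient.out C)) * res (c (Quotient.out C) χ) * res ((χ : G → ℂ) g) =
            φ (dl (Quotient.out C)) *
              ∑ χ : IrrCharacter G, res (c (Quotient.out C) χ * (χ : G → ℂ) g) := by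
          rw [Finset.mul_sum]
          refine Finset.sum_congr rfl fun χ _ => ?_
          rw [hmul _ _ (hc1 _ hC χ) (hloc χ g), mul_assoc]
        rw [e4, e3]
        by_cases hcon : IsConj g (Quotient.out C)
        · rw [if_pos hcon, if_pos hcon, hone]
        · rw [if_neg hcon, if_neg hcon, Cfsg.Agent.Lib.Helper82.res_zero res hM hzero]
      · simp only [if_neg hC, zero_mul, Finset.sum_const_zero]
    rw [e1, Finset.sum_eq_single (ConjClasses.mk g)]
    · have hconj : IsConj (Quotient.out (ConjClasses.mk g)) g :=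
        ConjClasses.mk_eq_mk_iff_isConj.mp (Quotient.out_eq _)
      obtain ⟨t, ht⟩ := isConj_iff.mp hconj
      have hreg : IsPRegular p (Quotient.out (ConjClasses.mk g)) := by
        have h1 := orderOf_conj_eq t (Quotient.out (ConjClasses.mk g))
        rw [ht] at h1
        unfold IsPRegular
        rw [← h1]
        exact hg
      rw [if_pos hreg, if_pos hconj.symm, mul_one]
      have h2 := hcl (Quotient.out (ConjClasses.mk g)) t
      rw [ht] at h2
      exact h2
    · intro C _ hC
      by_cases hCr : IsPRegular p (Quotient.out C)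
      · rw [if_pos hCr, if_neg, mul_zero]
        intro hcon
        apply hC
        rw [← Quotient.out_eq C]
        exact (ConjClasses.mk_eq_mk_iff_isConj.mpr hcon).symm
      · rw [if_neg hCr]
    · intro h; exact absurd (Finset.mem_univ _) h
  obtain ⟨a, hd⟩ := hd
  -- all elements
  have hd' : ∀ g : G, φ (dl g) = ∑ χ : IrrCharacter G, a χ * res ((χ : G → ℂ) g) := by
    intro g
    obtain ⟨x, y, hxy, hcomm, hk, hy, hres⟩ := hpp g
    have e1 : φ (dl g) = φ (dl y) := by
      rw [← hxy, hcomm.eq]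
      exact hsu y x hcomm.symm hk
    rw [e1, hd y hy]
    refine Finset.sum_congr rfl fun χ _ => ?_
    rw [hres χ]
  -- the block idempotent
  have he : ∀ h : G, φ (dl h) =
      (∑ χ : IrrCharacter G, if χ ∈ B then a χ * res (q χ) else 0) * res ((χ₀ : G → ℂ) h) := by
    intro h
    have e1 : φ (dl h) = ∑ g : G, res (blockCoeff B (g * h⁻¹)) * φ (dl g) := by
      rw [← hφB (dl h), hexp]
      refine Finset.sum_congr rfl fun g _ => ?_
      congr 1
      change ((rho res (blockCoeff B)) * (dl h : invAlg K G).1) g 1 = _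
      rw [mul_dl_apply, rho_apply]
    have e2 : ∀ χ : IrrCharacter G,
        ∑ g : G, res (blockCoeff B (g * h⁻¹)) * res ((χ : G → ℂ) g) =
        if χ ∈ B then res ((χ : G → ℂ) h) else 0 := by
      intro χ
      have e3 := hFB χ (Pi.single h 1)
      have e4 : ∀ g : G, conv (blockCoeff B) (Pi.single h (1 : ℂ)) g = blockCoeff B (g * h⁻¹) := by
        intro g
        rw [conv_apply, Finset.sum_eq_single (g * h⁻¹)]
        · rw [mul_inv_rev, inv_inv, inv_mul_cancel_right, Pi.single_eq_same, mul_one]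
        · intro k _ hk
          rw [Pi.single_eq_of_ne, mul_zero]
          intro h1
          apply hk
          rw [← h1]; group
        · intro h'; exact absurd (Finset.mem_univ _) h'
      have e5 : ∑ g : G, (Pi.single h (1 : ℂ) : G → ℂ) g * (χ : G → ℂ) g = (χ : G → ℂ) h := by
        rw [Finset.sum_eq_single h]
        · rw [Pi.single_eq_same, one_mul]
        · intro g _ hg
          rw [Pi.single_eq_of_ne hg, zero_mul]
        · intro h'; exact absurd (Finset.mem_univ _) h'
      simp only [e4, e5] at e3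
      have e6 := congrArg res e3
      rw [Cfsg.Agent.Lib.Helper82.res_sum res hM hadd hzero _ _
        (fun g _ => locRing_mul hM (osima hM B hB _) (hloc χ g))] at e6
      by_cases hχ : χ ∈ B
      · rw [if_pos hχ] at e6 ⊢
        rw [← e6]
        refine Finset.sum_congr rfl fun g _ => ?_
        rw [hmul _ _ (osima hM B hB _) (hloc χ g)]
      · rw [if_neg hχ] at e6 ⊢
        rw [Cfsg.Agent.Lib.Helper82.res_zero res hM hzero] at e6
        rw [← e6]
        refine Finset.sum_congr rfl fun g _ => ?_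
        rw [hmul _ _ (osima hM B hB _) (hloc χ g)]
    rw [e1]
    calc ∑ g : G, res (blockCoeff B (g * h⁻¹)) * φ (dl g)
        = ∑ g : G, ∑ χ : IrrCharacter G,
            a χ * (res (blockCoeff B (g * h⁻¹)) * res ((χ : G → ℂ) g)) := by
          refine Finset.sum_congr rfl fun g _ => ?_
          rw [hd' g, Finset.mul_sum]
          refine Finset.sum_congr rfl fun χ _ => ?_
          ring
      _ = ∑ χ : IrrCharacter G,
            a χ * ∑ g : G, res (blockCoeff B (g * h⁻¹)) * res ((χ : G → ℂ) g) := by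
          rw [Finset.sum_comm]
          refine Finset.sum_congr rfl fun χ _ => ?_
          rw [Finset.mul_sum]
      _ = ∑ χ : IrrCharacter G,
            (if χ ∈ B then a χ * res (q χ) else 0) * res ((χ₀ : G → ℂ) h) := by
          refine Finset.sum_congr rfl fun χ _ => ?_
          rw [e2 χ]
          by_cases hχ : χ ∈ B
          · rw [if_pos hχ, if_pos hχ, hB1 χ hχ h, mul_assoc]
          · rw [if_neg hχ, if_neg hχ, mul_zero, zero_mul]
      _ = _ := by rw [Finset.sum_mul]
  refine ⟨∑ χ : IrrCharacter G, if χ ∈ B then a χ * res (q χ) else 0, ?_⟩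
  apply LinearMap.ext
  intro X
  rw [hexp X, LinearMap.smul_apply, smul_eq_mul]
  change _ = _ * ∑ g : G, (X : Matrix G G K) g 1 * res ((χ₀ : G → ℂ) g)
  rw [Finset.mul_sum]
  refine Finset.sum_congr rfl fun g _ => ?_
  rw [he g]
  ring

end Cfsg.Agent.Lib.Helper84.Kuls
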