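import Cfsg.Agent.Lib.Helper84.Thompson
import Cfsg.Agent.S0887

set_option autoImplicit false

namespace Cfsg.Agent.Lib.Helper84

open Cfsg Cfsg.Agent.Lib Cfsg.Agent.Lib.Helper20

universe u

/-- a character with an irreducible constituent of the same degree is that constituent -/
theorem eq_of_constituent_degree {N : Type u} [Group N] [Fintype N] (ψ : N → ℂ)
    (hψ : IsCharacter N ψ) (θ : IrrCharacter N) (hcon : classInner ψ (θ : N → ℂ) ≠ 0)
    (hdeg : ψ 1 = (θ : N → ℂ) 1) : ψ = (θ : N → ℂ) := by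
  classical
  letI : Fintype (IrrCharacter N) := Fintype.ofFinite _
  obtain ⟨m, hm⟩ := Helper4.exists_decomp_of_isCharacter ψ hψ
  have h1 : classInner ψ (θ : N → ℂ) = m θ := by
    rw [hm]; exact Helper4.classInner_sum_irr _ θ
  have hmθ : m θ ≠ 0 := by
    intro h0
    apply hcon
    rw [h1, h0]; simp
  have hval : ψ 1 = ((∑ φ : IrrCharacter N, m φ * charDegree (φ : N → ℂ) : ℕ) : ℂ) := by
    rw [hm]
    simp only [Finset.sum_apply, Pi.smul_apply, smul_eq_mul]
    push_cast
    apply Finset.sum_congr rfl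
    intro φ _
    rw [(Helper83.irr_degree φ.2).2]
  rw [hdeg, (Helper83.irr_degree θ.2).2] at hval
  have hnat : charDegree (θ : N → ℂ) = ∑ φ : IrrCharacter N, m φ * charDegree (φ : N → ℂ) := by
    exact_mod_cast hval
  rw [← Finset.add_sum_erase Finset.univ _ (Finset.mem_univ θ)] at hnat
  have hdpos := (Helper83.irr_degree θ.2).1
  have hm1 : m θ = 1 := by
    have h2 : m θ * charDegree (θ : N → ℂ) ≤ charDegree (θ : N → ℂ) := by omega
    have h3 : m θ ≤ 1 := by
      by_contra h4
      push Not at h4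
      have : 2 * charDegree (θ : N → ℂ) ≤ m θ * charDegree (θ : N → ℂ) :=
        Nat.mul_le_mul_right _ h4
      omega
    omega
  have hrest : ∑ φ ∈ Finset.univ.erase θ, m φ * charDegree (φ : N → ℂ) = 0 := by
    rw [hm1, one_mul] at hnat
    omega
  have hzero : ∀ φ : IrrCharacter N, φ ≠ θ → m φ = 0 := by
    intro φ hφ
    have h2 := (Finset.sum_eq_zero_iff.mp hrest) φ (Finset.mem_erase.mpr ⟨hφ, Finset.mem_univ φ⟩)
    have h3 := (Helper83.irr_degree φ.2).1
    rcases Nat.mul_eq_zero.mp h2 with h | h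
    · exact h
    · omega
  rw [hm, Finset.sum_eq_single θ]
  · rw [hm1]; simp
  · intro φ _ hφ
    rw [hzero φ hφ]; simp
  · intro h; exact absurd (Finset.mem_univ θ) h

/-- restriction of an irreducible character of degree prime to `p` to a normal subgroup of
`p`-power index is irreducible -/
theorem res_irr_of_pprime {G : Type u} [Group G] [Finite G] (p : ℕ) [hp : Fact p.Prime]
    (A : Subgroup G) [hA : A.Normal] (hidx : ∃ k : ℕ, A.index = p ^ k) (χ : G → ℂ)
    (hχ : IsIrrCharacter G χ) (hdeg : ¬ p ∣ charDegree χ) :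
    IsIrrCharacter A (fun a : A => χ a) := by
  classical
  letI : Fintype G := Fintype.ofFinite G
  letI : Fintype A := Fintype.ofFinite A
  obtain ⟨k, hk⟩ := hidx
  obtain ⟨θ, hθ, hcon⟩ := Helper20.exists_constituent A hχ
  obtain ⟨hdv, hq⟩ := Cfsg.Agent.S0887.result A χ hχ θ hθ hcon (charDegree χ) (charDegree θ)
    (Helper83.irr_degree hχ).2 (Helper83.irr_degree hθ).2
  rw [hk] at hq
  obtain ⟨j, -, hj⟩ := (Nat.dvd_prime_pow hp.out).mp hq
  have hmul : charDegree θ * (charDegree χ / charDegree θ) = charDegree χ :=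
    Nat.mul_div_cancel' hdv
  have hj0 : j = 0 := by
    by_contra hne
    apply hdeg
    rw [← hmul, hj]
    exact Dvd.dvd.mul_left (dvd_pow_self p hne) _
  rw [hj, hj0, pow_zero, mul_one] at hmul
  have heq : (fun a : A => χ a) = θ := by
    apply eq_of_constituent_degree (fun a : A => χ a)
      (Helper35.isCharacter_res A (Helper35.isChar_of_irr hχ)) ⟨θ, hθ⟩ hcon
    show χ ((1 : A) : G) = θ 1
    rw [(Helper83.irr_degree hθ).2, hmul, ← (Helper83.irr_degree hχ).2]
    rfl
  rw [heq]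
  exact hθ

/-- `|O^p(G)|` is congruent modulo `p` to the sum of the squares of the degrees of the
irreducible characters of `G` of degree and determinantal order prime to `p`. -/
theorem pres_card_modEq {G : Type u} [Group G] [Finite G] (p : ℕ) (hp : p.Prime) :
    (Nat.card (pResidual p G) : ℤ) ≡
      (∑ᶠ χ ∈ {χ : IrrCharacter G | ¬ p ∣ charDegree (χ : G → ℂ) ∧
        ¬ p ∣ detOrder (χ : G → ℂ)}, (charDegree (χ : G → ℂ) : ℤ) ^ 2) [ZMOD p] := by
  classical
  haveI : Fact p.Prime := ⟨hp⟩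
  haveI hA : (pResidual p G).Normal := pres_normal p
  letI : Fintype (IrrCharacter ↥(pResidual p G)) := Fintype.ofFinite _
  letI : Fintype (IrrCharacter G) := Fintype.ofFinite _
  letI act : MulAction G (IrrCharacter ↥(pResidual p G)) := irrConjAction (pResidual p G)
  let P : Sylow p G := default
  let f : IrrCharacter ↥(pResidual p G) → ℕ := fun θ =>
    charDegree (θ : ↥(pResidual p G) → ℂ) ^ 2
  have hsmul : ∀ (g : G) (θ : IrrCharacter ↥(pResidual p G)),
      ((g • θ : IrrCharacter ↥(pResidual p G)) : ↥(pResidual p G) → ℂ) =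
        conjFun (pResidual p G) (θ : ↥(pResidual p G) → ℂ) g⁻¹ := fun g θ => rfl
  have hf : ∀ (g : (P : Subgroup G)) (θ : IrrCharacter ↥(pResidual p G)), f (g • θ) = f θ := by
    intro g θ
    show charDegree (((g : G) • θ : IrrCharacter ↥(pResidual p G)) :
        ↥(pResidual p G) → ℂ) ^ 2 = _
    rw [hsmul, charDegree_conjFun]
  have hsum := sum_modEq_sum_fixed p P.isPGroup' f hf
  have hsq := Helper83.sum_charDegree_sq (G := ↥(pResidual p G))
  -- drop the fixed points of degree divisible by p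
  have hdrop : ∑ θ ∈ Finset.univ.filter (fun θ : IrrCharacter ↥(pResidual p G) =>
      ∀ g : (P : Subgroup G), g • θ = θ), f θ ≡
      ∑ θ ∈ Finset.univ.filter (fun θ : IrrCharacter ↥(pResidual p G) =>
        (∀ g : (P : Subgroup G), g • θ = θ) ∧
          ¬ p ∣ charDegree (θ : ↥(pResidual p G) → ℂ)), f θ [MOD p] := by
    rw [← Finset.sum_filter_add_sum_filter_not
      (Finset.univ.filter fun θ : IrrCharacter ↥(pResidual p G) =>
        ∀ g : (P : Subgroup G), g • θ = θ)
      (fun θ => ¬ p ∣ charDegree (θ : ↥(pResidual p G) → ℂ)) f,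
      Finset.filter_filter, Finset.filter_filter]
    have hz : p ∣ ∑ θ ∈ Finset.univ.filter (fun θ : IrrCharacter ↥(pResidual p G) =>
        (∀ g : (P : Subgroup G), g • θ = θ) ∧
          ¬ ¬ p ∣ charDegree (θ : ↥(pResidual p G) → ℂ)), f θ := by
      apply Finset.dvd_sum
      intro θ hθ
      have h2 := (Finset.mem_filter.mp hθ).2.2
      exact dvd_pow (not_not.mp h2) two_ne_zero
    have hz' := Nat.modEq_zero_iff_dvd.mpr hz
    calc _ ≡ ∑ θ ∈ Finset.univ.filter (fun θ : IrrCharacter ↥(pResidual p G) =>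
        (∀ g : (P : Subgroup G), g • θ = θ) ∧
          ¬ p ∣ charDegree (θ : ↥(pResidual p G) → ℂ)), f θ + 0 [MOD p] :=
          Nat.ModEq.add_left _ hz'
      _ = _ := add_zero _
  -- the bijection
  have hbij : ∑ χ ∈ (Set.toFinite {χ : IrrCharacter G | ¬ p ∣ charDegree (χ : G → ℂ) ∧
        ¬ p ∣ detOrder (χ : G → ℂ)}).toFinset, charDegree (χ : G → ℂ) ^ 2 =
      ∑ θ ∈ Finset.univ.filter (fun θ : IrrCharacter ↥(pResidual p G) =>
        (∀ g : (P : Subgroup G), g • θ = θ) ∧
          ¬ p ∣ charDegree (θ : ↥(pResidual p G) → ℂ)), f θ := by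
    have hmemT : ∀ χ : IrrCharacter G,
        χ ∈ (Set.toFinite {χ : IrrCharacter G | ¬ p ∣ charDegree (χ : G → ℂ) ∧
          ¬ p ∣ detOrder (χ : G → ℂ)}).toFinset ↔
        (¬ p ∣ charDegree (χ : G → ℂ) ∧ ¬ p ∣ detOrder (χ : G → ℂ)) := by
      intro χ
      rw [Set.Finite.mem_toFinset]
      exact Iff.rfl
    have hresinv : ∀ (χ : IrrCharacter G) (g : G) (n : ↥(pResidual p G)),
        (χ : G → ℂ) ((⟨g * n * g⁻¹, hA.conj_mem (n : G) n.2 g⟩ : ↥(pResidual p G)) : G) =
          (χ : G → ℂ) n := by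
      intro χ g n
      exact Helper35.isClassFunction_of_isCharacter (Helper35.isChar_of_irr χ.2) (n : G) g
    refine Finset.sum_bij
      (fun χ hχ => (⟨fun a : ↥(pResidual p G) => (χ : G → ℂ) a,
        res_irr_of_pprime p (pResidual p G) (pres_index p) χ χ.2 ((hmemT χ).mp hχ).1⟩ :
          IrrCharacter ↥(pResidual p G))) ?_ ?_ ?_ ?_
    · intro χ hχ
      rw [Finset.mem_filter]
      refine ⟨Finset.mem_univ _, ?_, ((hmemT χ).mp hχ).1⟩
      intro g
      apply Subtype.ext
      show conjFun (pResidual p G) (fun a : ↥(pResidual p G) => (χ : G → ℂ) a) ((g : G))⁻¹ = _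
      exact conjFun_res (pResidual p G)
        (Helper35.isClassFunction_of_isCharacter (Helper35.isChar_of_irr χ.2)) _
    · intro χ₁ h₁ χ₂ h₂ heq
      have heq' : ∀ n : ↥(pResidual p G), (χ₂ : G → ℂ) n = (χ₁ : G → ℂ) n := by
        intro n
        have := congrFun (congrArg Subtype.val heq) n
        exact this.symm
      obtain ⟨χ₀, -, -, -, huniq⟩ := ext_of_no_pquot p (pResidual p G) (pres_index p)
        (pres_no_pquot p) (fun a : ↥(pResidual p G) => (χ₁ : G → ℂ) a)
        (res_irr_of_pprime p (pResidual p G) (pres_index p) χ₁ χ₁.2 ((hmemT χ₁).mp h₁).1)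
        (hresinv χ₁) ((hmemT χ₁).mp h₁).1
      have e1 := huniq χ₁ χ₁.2 (fun n => rfl) ((hmemT χ₁).mp h₁).2
      have e2 := huniq χ₂ χ₂.2 heq' ((hmemT χ₂).mp h₂).2
      exact Subtype.ext (e1.trans e2.symm)
    · intro θ hθ
      obtain ⟨-, hθfix, hθdeg⟩ := Finset.mem_filter.mp hθ
      have hinvP : ∀ g ∈ (P : Subgroup G),
          conjFun (pResidual p G) (θ : ↥(pResidual p G) → ℂ) g = θ := by
        intro g hg
        have h3 := hθfix ⟨g⁻¹, inv_mem hg⟩
        have h4 := congrArg Subtype.val h3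
        have h5 : ((((⟨g⁻¹, inv_mem hg⟩ : (P : Subgroup G)) • θ :
            IrrCharacter ↥(pResidual p G))) : ↥(pResidual p G) → ℂ) =
            conjFun (pResidual p G) (θ : ↥(pResidual p G) → ℂ) (g⁻¹)⁻¹ := rfl
        rw [inv_inv] at h5
        rw [← h5]
        exact h4
      have hinv : ∀ (g : G) (n : ↥(pResidual p G)),
          (θ : ↥(pResidual p G) → ℂ) ⟨g * n * g⁻¹, hA.conj_mem (n : G) n.2 g⟩ =
            (θ : ↥(pResidual p G) → ℂ) n := by
        intro g n
        have h3 := invariant_of_sylow_fixed p P (θ : ↥(pResidual p G) → ℂ)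
          (Helper35.isChar_of_irr θ.2) hinvP g
        have h4 := congrFun h3 n
        rw [conjFun_apply] at h4
        exact h4
      obtain ⟨χ, hχ, hχN, hχo, -⟩ := ext_of_no_pquot p (pResidual p G) (pres_index p)
        (pres_no_pquot p) (θ : ↥(pResidual p G) → ℂ) θ.2 hinv hθdeg
      have hdegeq : charDegree χ = charDegree (θ : ↥(pResidual p G) → ℂ) := by
        unfold charDegree
        have := hχN 1
        rw [← this]
        rfl
      refine ⟨⟨χ, hχ⟩, (hmemT _).mpr ⟨by show ¬ p ∣ charDegree χ; rw [hdegeq]; exact hθdeg, hχo⟩,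
        ?_⟩
      exact Subtype.ext (funext hχN)
    · intro χ hχ
      rfl
  rw [finsum_mem_eq_finite_toFinset_sum _ (Set.toFinite _)]
  have hnat : Nat.card (pResidual p G) ≡
      ∑ χ ∈ (Set.toFinite {χ : IrrCharacter G | ¬ p ∣ charDegree (χ : G → ℂ) ∧
        ¬ p ∣ detOrder (χ : G → ℂ)}).toFinset, charDegree (χ : G → ℂ) ^ 2 [MOD p] := by
    rw [hbij, ← hsq]
    exact hsum.trans hdrop
  have hz := (Int.natCast_modEq_iff).mpr hnat
  push_cast at hz
  exact hz

end Cfsg.Agent.Lib.Helper84
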