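import Mathlib

set_option autoImplicit false

namespace Cfsg.Agent.Lib.Helper84

/-- A `p`-group acting on a finite set: an invariant subset has as many points, modulo `p`,
as fixed points. -/
theorem card_stable_modEq {P X : Type*} [Group P] [MulAction P X] [Finite X] (p : ℕ)
    [Fact p.Prime] (hP : IsPGroup p P) (S : Set X) (hS : ∀ (g : P) (x : X), x ∈ S → g • x ∈ S) :
    Nat.card {x : X // x ∈ S} ≡ Nat.card {x : X // x ∈ S ∧ ∀ g : P, g • x = x} [MOD p] := by
  let T : SubMulAction P X := ⟨S, fun g {x} hx => hS g x hx⟩
  have h1 := hP.card_modEq_card_fixedPoints (↥T)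
  have e1 : (↥T) ≃ {x : X // x ∈ S} := Equiv.refl _
  have e2 : (MulAction.fixedPoints P ↥T) ≃ {x : X // x ∈ S ∧ ∀ g : P, g • x = x} :=
    { toFun := fun y => ⟨(y.1 : X), y.1.2, fun g => congrArg Subtype.val (y.2 g)⟩
      invFun := fun y => ⟨⟨y.1, y.2.1⟩, fun g => Subtype.ext (y.2.2 g)⟩
      left_inv := fun y => rfl
      right_inv := fun y => rfl }
  rw [Nat.card_congr e1, Nat.card_congr e2] at h1
  exact h1

/-- A `p`-group acting on a finite set: the sum of an invariant weight is congruent modulo `p`
to its sum over the fixed points. -/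
theorem sum_modEq_sum_fixed {P X : Type*} [Group P] [MulAction P X] [Fintype X] (p : ℕ)
    [Fact p.Prime] (hP : IsPGroup p P) (f : X → ℕ) (hf : ∀ (g : P) (x : X), f (g • x) = f x)
    [DecidablePred fun x : X => ∀ g : P, g • x = x] :
    ∑ x, f x ≡ ∑ x with (∀ g : P, g • x = x), f x [MOD p] := by
  classical
  have hfix : ∀ (g : P) (x : X), (∀ k : P, k • x = x) → ∀ k : P, k • (g • x) = g • x := by
    intro g x hx k
    rw [hx g, hx k]
  rw [← Finset.sum_fiberwise_of_maps_to (s := Finset.univ) (t := Finset.univ.image f)
      (g := f) (f := f) (fun x _ => Finset.mem_image_of_mem f (Finset.mem_univ x)),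
    ← Finset.sum_fiberwise_of_maps_to (s := Finset.univ.filter fun x => ∀ g : P, g • x = x)
      (t := Finset.univ.image f)
      (g := f) (f := f) (fun x _ => Finset.mem_image_of_mem f (Finset.mem_univ x))]
  have hterm : ∀ v ∈ Finset.univ.image f,
      ∑ x ∈ Finset.univ with f x = v, f x ≡
        ∑ x ∈ (Finset.univ.filter fun x => ∀ g : P, g • x = x) with f x = v, f x [MOD p] := by
    intro v _
    have h1 : ∑ x ∈ Finset.univ with f x = v, f x =
        (Finset.univ.filter fun x => f x = v).card * v := by
      rw [Finset.sum_congr rfl (fun x hx => (Finset.mem_filter.mp hx).2), Finset.sum_const,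
        smul_eq_mul]
    have h2 : ∑ x ∈ (Finset.univ.filter fun x => ∀ g : P, g • x = x) with f x = v, f x =
        ((Finset.univ.filter fun x => ∀ g : P, g • x = x).filter fun x => f x = v).card * v := by
      rw [Finset.sum_congr rfl (fun x hx => (Finset.mem_filter.mp hx).2), Finset.sum_const,
        smul_eq_mul]
    rw [h1, h2]
    apply Nat.ModEq.mul_right
    have h3 := card_stable_modEq p hP {x : X | f x = v}
      (fun g x hx => by
        show f (g • x) = v
        rw [hf g x]; exact hx)
    have c1 : Nat.card {x : X // x ∈ {x : X | f x = v}} =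
        (Finset.univ.filter fun x => f x = v).card := by
      rw [Nat.card_eq_fintype_card, Fintype.card_subtype]
      rfl
    have c2 : Nat.card {x : X // x ∈ {x : X | f x = v} ∧ ∀ g : P, g • x = x} =
        ((Finset.univ.filter fun x => ∀ g : P, g • x = x).filter fun x => f x = v).card := by
      rw [Nat.card_eq_fintype_card, Fintype.card_subtype]
      congr 1
      ext x
      simp only [Finset.mem_filter, Finset.mem_univ, true_and, Set.mem_setOf_eq]
      tauto
    rw [c1, c2] at h3
    exact h3
  exact Nat.ModEq.sum hterm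

end Cfsg.Agent.Lib.Helper84
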