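import Mathlib
import Cfsg.Prelude.Def_Characters
import Cfsg.Prelude.Def_CharExt
import Cfsg.Prelude.Def_Transfer
import Cfsg.Prelude.Def_Blocks
import Cfsg.Agent.S0862
import Cfsg.Agent.S0863
import Cfsg.Agent.S0865
import Cfsg.Agent.Lib.Helper83.LinearCount
import Cfsg.Agent.Lib.Helper83.Ortho
import Cfsg.Agent.Lib.Helper84.OrbSum

set_option autoImplicit false

namespace Cfsg.Agent.Lib.Helper84

open Cfsg Cfsg.Agent.Lib Cfsg.Agent.Lib.Helper20

universe u

section pres

variable {G : Type u} [Group G] (p : ℕ)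

/-- `O^p(G)` is normal. -/
theorem pres_normal : (pResidual p G).Normal := by
  constructor
  intro n hn g
  have key : (pResidual p G).map (MulAut.conj g).toMonoidHom ≤ pResidual p G := by
    unfold pResidual
    rw [MonoidHom.map_closure, Subgroup.closure_le]
    rintro _ ⟨x, hx, rfl⟩
    apply Subgroup.subset_closure
    show Nat.Coprime (orderOf ((MulAut.conj g) x)) p
    rw [(MulAut.conj g).orderOf_eq x]
    exact hx
  have h1 : (MulAut.conj g).toMonoidHom n ∈ (pResidual p G).map (MulAut.conj g).toMonoidHom :=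
    Subgroup.mem_map_of_mem _ hn
  have h2 := key h1
  simpa using h2

/-- `G / O^p(G)` is a `p`-group. -/
theorem pres_quot_pgroup [Finite G] [hp : Fact p.Prime] [(pResidual p G).Normal] :
    IsPGroup p (G ⧸ pResidual p G) := by
  intro x
  obtain ⟨g, rfl⟩ := QuotientGroup.mk_surjective x
  obtain ⟨k, m, hm, hkm⟩ :=
    Nat.exists_eq_pow_mul_and_not_dvd (orderOf_pos g).ne' p hp.out.ne_one
  refine ⟨k, ?_⟩
  rw [← QuotientGroup.mk_pow, QuotientGroup.eq_one_iff]
  apply Subgroup.subset_closure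
  show Nat.Coprime (orderOf (g ^ p ^ k)) p
  have hpk : p ^ k ≠ 0 := pow_ne_zero _ hp.out.ne_zero
  have h1 : orderOf (g ^ p ^ k) = m := by
    rw [orderOf_pow_of_dvd hpk ⟨m, hkm⟩, hkm, Nat.mul_div_cancel_left _ (Nat.pos_of_ne_zero hpk)]
  rw [h1]
  exact ((Nat.Prime.coprime_iff_not_dvd hp.out).mpr hm).symm

/-- the index of `O^p(G)` is a power of `p`. -/
theorem pres_index [Finite G] [hp : Fact p.Prime] : ∃ k : ℕ, (pResidual p G).index = p ^ k := by
  haveI := pres_normal (G := G) p
  obtain ⟨k, hk⟩ := IsPGroup.iff_card.mp (pres_quot_pgroup (G := G) p)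
  exact ⟨k, by rw [Subgroup.index_eq_card]; exact hk⟩

/-- `O^p(G)` has no nontrivial homomorphism to a `p`-group. -/
theorem pres_hom_trivial [hp : Fact p.Prime] {Y : Type*} [Group Y] (hY : IsPGroup p Y)
    (f : ↥(pResidual p G) →* Y) (a : ↥(pResidual p G)) : f a = 1 := by
  have key : pResidual p G ≤ (f.ker).map (pResidual p G).subtype := by
    conv_lhs => unfold pResidual
    rw [Subgroup.closure_le]
    intro x hx
    have hx' : Nat.Coprime (orderOf x) p := hx
    have hxm : x ∈ pResidual p G := Subgroup.subset_closure hx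
    refine ⟨⟨x, hxm⟩, ?_, rfl⟩
    show f ⟨x, hxm⟩ = 1
    obtain ⟨k, hk⟩ := hY (f ⟨x, hxm⟩)
    have h1 : orderOf (f ⟨x, hxm⟩) ∣ p ^ k := orderOf_dvd_of_pow_eq_one hk
    have h2 : orderOf (f ⟨x, hxm⟩) ∣ orderOf x := by
      have := orderOf_map_dvd f (⟨x, hxm⟩ : ↥(pResidual p G))
      rwa [Subgroup.orderOf_mk] at this
    have h3 : Nat.Coprime (orderOf x) (p ^ k) := Nat.Coprime.pow_right k hx'
    exact orderOf_eq_one_iff.1 (Nat.eq_one_of_dvd_coprimes h3 h2 h1)
  obtain ⟨b, hb, hba⟩ := key a.2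
  have : b = a := Subtype.ext hba
  rw [← this]
  exact hb

/-- a Sylow `p`-subgroup together with `O^p(G)` generates `G`. -/
theorem pres_sup_sylow [Finite G] [hp : Fact p.Prime] (P : Sylow p G) :
    (P : Subgroup G) ⊔ pResidual p G = ⊤ := by
  obtain ⟨k, hk⟩ := pres_index (G := G) p
  have h1 : ((P : Subgroup G) ⊔ pResidual p G).index ∣ (P : Subgroup G).index :=
    Subgroup.index_dvd_of_le le_sup_left
  have h2 : ((P : Subgroup G) ⊔ pResidual p G).index ∣ p ^ k := by
    rw [← hk]; exact Subgroup.index_dvd_of_le le_sup_right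
  have h3 : ¬ p ∣ (P : Subgroup G).index := P.not_dvd_index
  have h4 : Nat.Coprime (P : Subgroup G).index (p ^ k) :=
    Nat.Coprime.pow_right k (((Nat.Prime.coprime_iff_not_dvd hp.out).mpr h3).symm)
  exact Subgroup.index_eq_one.mp (Nat.eq_one_of_dvd_coprimes h4 h1 h2)

end pres

section action

variable {G : Type u} [Group G] (A : Subgroup G) [hA : A.Normal]

/-- the conjugation action of `G` on the irreducible characters of a normal subgroup -/
noncomputable def irrConjAction : MulAction G (IrrCharacter A) where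
  smul g θ := ⟨conjFun A (θ : A → ℂ) g⁻¹, conjFun_irr A θ.2 g⁻¹⟩
  one_smul θ := Subtype.ext (by
    show conjFun A (θ : A → ℂ) 1⁻¹ = θ
    rw [inv_one, conjFun_one])
  mul_smul g h θ := Subtype.ext (by
    show conjFun A (θ : A → ℂ) (g * h)⁻¹ = conjFun A (conjFun A (θ : A → ℂ) h⁻¹) g⁻¹
    rw [conjFun_conjFun, mul_inv_rev])

theorem conjFun_one_apply (α : A → ℂ) (g : G) : conjFun A α g 1 = α 1 := by
  rw [conjFun_apply]
  congr 1
  apply Subtype.ext
  simp

theorem charDegree_conjFun (α : A → ℂ) (g : G) : charDegree (conjFun A α g) = charDegree α := by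
  unfold charDegree
  rw [conjFun_one_apply]

end action

end Cfsg.Agent.Lib.Helper84
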