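import Cfsg.Agent.Lib.Helper84.OpExt

set_option autoImplicit false

namespace Cfsg.Agent.Lib.Helper84

open Cfsg Cfsg.Agent.Lib Cfsg.Agent.Lib.Helper20

universe u

/-- the determinantal character of a `G`-invariant character of a normal subgroup is
`G`-invariant -/
theorem detChar_invariant {G : Type u} [Group G] [Finite G] (A : Subgroup G) [hA : A.Normal]
    (θ : A → ℂ) (hθc : IsCharacter A θ)
    (hinv : ∀ (g : G) (n : A), θ ⟨g * n * g⁻¹, hA.conj_mem (n : G) n.2 g⟩ = θ n)
    (g : G) (n : A) :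
    detChar θ ⟨g * n * g⁻¹, hA.conj_mem (n : G) n.2 g⟩ = detChar θ n := by
  have h3 := detChar_comp (MulAut.conjNormal g : A ≃* A).toMonoidHom hθc n
  have h4 : (fun a : A => θ ((MulAut.conjNormal g : A ≃* A).toMonoidHom a)) = θ := by
    funext a
    exact hinv g a
  rw [h4] at h3
  rw [h3]
  rfl

/-- the order of the determinantal character is prime to `p` when the group has no nontrivial
linear character of order `p` -/
theorem detChar_order_coprime {A : Type u} [Group A] [Finite A] (p : ℕ) [hp : Fact p.Prime]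
    (hnq : ∀ f : A →* ℂˣ, (∀ a, f a ^ p = 1) → ∀ a, f a = 1) (θ : A → ℂ) :
    Nat.Coprime (orderOf (detChar θ)) p := by
  obtain ⟨f, hf⟩ := exists_detHom θ
  have hpow : ∀ j : ℕ, detChar θ ^ j = 1 ↔ ∀ a, f a ^ j = 1 := by
    intro j
    constructor
    · intro h a
      apply Units.ext
      rw [Units.val_pow_eq_pow_val, hf a, Units.val_one]
      have := congrFun h a
      simpa using this
    · intro h
      funext a
      show detChar θ a ^ j = 1
      rw [← hf a, ← Units.val_pow_eq_pow_val, h a, Units.val_one]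
  have hfin : detChar θ ^ Nat.card A = 1 := (hpow _).mpr (fun a => by
    rw [← map_pow, pow_card_eq_one', map_one])
  have hcpos : 0 < Nat.card A := Nat.card_pos
  have hnpos : 0 < orderOf (detChar θ) :=
    orderOf_pos_iff.mpr (isOfFinOrder_iff_pow_eq_one.mpr ⟨Nat.card A, hcpos, hfin⟩)
  rw [Nat.coprime_comm, Nat.Prime.coprime_iff_not_dvd hp.out]
  rintro ⟨m, hm⟩
  have hmpos : 0 < m := by
    rcases Nat.eq_zero_or_pos m with h | h
    · rw [h, mul_zero] at hm; omega
    · exact h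
  have h1 : ∀ a, (f ^ m) a ^ p = 1 := by
    intro a
    rw [MonoidHom.pow_apply, ← pow_mul, mul_comm, ← hm]
    exact (hpow _).mp (pow_orderOf_eq_one _) a
  have h2 := hnq (f ^ m) h1
  have h3 : detChar θ ^ m = 1 := (hpow m).mpr (fun a => by
    have := h2 a
    rwa [MonoidHom.pow_apply] at this)
  have h4 : orderOf (detChar θ) ∣ m := orderOf_dvd_of_pow_eq_one h3
  rw [hm] at h4
  have h5 := Nat.le_of_dvd hmpos h4
  have h6 : 2 ≤ p := hp.out.two_le
  nlinarith

/-- **Canonical extension.**  Let `A ⊴ G` have `p`-power index and no nontrivial linear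
character of order `p`.  A `G`-invariant irreducible character of `A` of degree prime to `p`
has exactly one extension to `G` of determinantal order prime to `p`. -/
theorem ext_of_no_pquot {G : Type u} [Group G] [Finite G] (p : ℕ) [hp : Fact p.Prime]
    (A : Subgroup G) [hA : A.Normal] (hidx : ∃ k : ℕ, A.index = p ^ k)
    (hnq : ∀ f : A →* ℂˣ, (∀ a, f a ^ p = 1) → ∀ a, f a = 1)
    (θ : A → ℂ) (hθ : IsIrrCharacter A θ)
    (hinv : ∀ (g : G) (n : A), θ ⟨g * n * g⁻¹, hA.conj_mem (n : G) n.2 g⟩ = θ n)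
    (hdeg : ¬ p ∣ charDegree θ) :
    ∃ χ : G → ℂ, IsIrrCharacter G χ ∧ (∀ n : A, χ n = θ n) ∧ ¬ p ∣ detOrder χ ∧
      ∀ χ' : G → ℂ, IsIrrCharacter G χ' → (∀ n : A, χ' n = θ n) →
        ¬ p ∣ detOrder χ' → χ' = χ := by
  classical
  obtain ⟨k, hk⟩ := hidx
  obtain ⟨hdpos, hd⟩ := Helper83.irr_degree hθ
  have hθc : IsCharacter A θ := Helper35.isChar_of_irr hθ
  obtain ⟨hlam, hlam1⟩ := detChar_isCharacter θ
  have hlaminv := detChar_invariant A θ hθc hinv
  have hord : Nat.Coprime (orderOf (detChar θ)) p := detChar_order_coprime p hnq θ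
  have hcop1 : Nat.Coprime A.index (orderOf (detChar θ)) := by
    rw [hk]; exact Nat.Coprime.pow_left k hord.symm
  obtain ⟨μ, ⟨hμ, hμ1, hμN, hμord⟩, hμuniq⟩ :=
    Cfsg.Agent.S0865.result A (detChar θ) ⟨hlam, hlam1⟩ hlaminv hcop1
  have hcop2 : Nat.Coprime A.index (charDegree θ) := by
    rw [hk]; exact Nat.Coprime.pow_left k ((Nat.Prime.coprime_iff_not_dvd hp.out).mpr hdeg)
  have hPG : IsPGroup p (G ⧸ A) := IsPGroup.of_card (n := k) (by rw [← Subgroup.index_eq_card, hk])
  have hsolv : Group.IsSolvable (G ⧸ A) := by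
    haveI := hPG.isNilpotent
    infer_instance
  have hext := (Cfsg.Agent.S0863.result A hsolv θ hθ hinv (charDegree θ) hd hcop2).mpr
    ⟨μ, hμ, hμ1, hμN⟩
  obtain ⟨χ, ⟨hχ, hχN, hχdet⟩, hχuniq⟩ :=
    Cfsg.Agent.S0862.result A θ hθ (charDegree θ) hd hcop2 hext μ ⟨hμ, hμ1⟩ hμN
  refine ⟨χ, hχ, hχN, ?_, ?_⟩
  · unfold detOrder
    rw [hχdet, hμord]
    exact (Nat.Prime.coprime_iff_not_dvd hp.out).mp hord.symm
  · intro χ' hχ' hχ'N hχ'ord
    apply hχuniq
    refine ⟨hχ', hχ'N, ?_⟩
    apply hμuniq (detChar χ') (detChar_isCharacter χ')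
    · intro n
      rw [← detChar_res A (Helper35.isChar_of_irr hχ') n]
      have : (fun h : A => χ' h) = θ := funext hχ'N
      rw [this]
    · rw [hk]
      exact Nat.Coprime.pow_left k ((Nat.Prime.coprime_iff_not_dvd hp.out).mpr hχ'ord)

/-- `O^p(G)` has no nontrivial linear character of order `p`. -/
theorem pres_no_pquot {G : Type u} [Group G] (p : ℕ) [hp : Fact p.Prime]
    (f : ↥(pResidual p G) →* ℂˣ) (hf : ∀ a, f a ^ p = 1) (a : ↥(pResidual p G)) : f a = 1 := by
  have hY : IsPGroup p f.range := by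
    rintro ⟨y, b, rfl⟩
    refine ⟨1, Subtype.ext ?_⟩
    show f b ^ p ^ 1 = 1
    rw [pow_one]; exact hf b
  have h1 := pres_hom_trivial p hY f.rangeRestrict a
  have h2 := congrArg Subtype.val h1
  exact h2

end Cfsg.Agent.Lib.Helper84
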