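import Cfsg.Agent.Lib.Helper84.OpExt2

set_option autoImplicit false

namespace Cfsg.Agent.Lib.Helper84

open Cfsg Cfsg.Agent.Lib Cfsg.Agent.Lib.Helper20

universe u

/-- the abelianization of `O^p(G)` has order prime to `p` -/
theorem pres_commutator_index {G : Type u} [Group G] [Finite G] (p : ℕ) [hp : Fact p.Prime] :
    ¬ p ∣ (commutator ↥(pResidual p G)).index := by
  intro hdvd
  set A := pResidual p G
  have hcard : Nat.card (Abelianization ↥A) = (commutator ↥A).index :=
    (Subgroup.index_eq_card _).symm
  rw [← hcard] at hdvd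
  obtain ⟨x, hx⟩ := exists_prime_orderOf_dvd_card' (G := Abelianization ↥A) p hdvd
  let K : Subgroup (Abelianization ↥A) := (powMonoidHom p : Abelianization ↥A →* _).range
  have hQ : IsPGroup p (Abelianization ↥A ⧸ K) := by
    intro y
    obtain ⟨h, rfl⟩ := QuotientGroup.mk_surjective y
    refine ⟨1, ?_⟩
    rw [pow_one, ← QuotientGroup.mk_pow, QuotientGroup.eq_one_iff]
    exact ⟨h, rfl⟩
  have htop : ∀ h : Abelianization ↥A, h ∈ K := by
    intro h
    obtain ⟨a, rfl⟩ := QuotientGroup.mk_surjective h
    have h1 := pres_hom_trivial p hQ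
      ((QuotientGroup.mk' K).comp (Abelianization.of : ↥A →* Abelianization ↥A)) a
    exact (QuotientGroup.eq_one_iff _).mp h1
  have hsurj : Function.Surjective (powMonoidHom p : Abelianization ↥A →* _) := by
    intro h
    exact htop h
  have hinj := Finite.injective_iff_surjective.mpr hsurj
  have h2 : x = 1 := by
    apply hinj
    show x ^ p = 1 ^ p
    rw [one_pow, ← hx, pow_orderOf_eq_one]
  rw [h2, orderOf_one] at hx
  exact hp.out.one_lt.ne hx

/-- a character of `O^p(G)` fixed by a Sylow `p`-subgroup is `G`-invariant -/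
theorem invariant_of_sylow_fixed {G : Type u} [Group G] [Finite G] (p : ℕ) [hp : Fact p.Prime]
    [hA : (pResidual p G).Normal] (P : Sylow p G) (θ : ↥(pResidual p G) → ℂ)
    (hθ : IsCharacter ↥(pResidual p G) θ)
    (hfix : ∀ g ∈ (P : Subgroup G), conjFun (pResidual p G) θ g = θ) (g : G) :
    conjFun (pResidual p G) θ g = θ := by
  let T : Subgroup G :=
    { carrier := {g | conjFun (pResidual p G) θ g = θ}
      one_mem' := conjFun_one _ θ
      mul_mem' := by
        intro a b ha hb
        show conjFun (pResidual p G) θ (a * b) = θ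
        have ha' : conjFun (pResidual p G) θ a = θ := ha
        have hb' : conjFun (pResidual p G) θ b = θ := hb
        rw [← conjFun_conjFun, ha', hb']
      inv_mem' := by
        intro a ha
        show conjFun (pResidual p G) θ a⁻¹ = θ
        have ha' : conjFun (pResidual p G) θ a = θ := ha
        have h1 : conjFun (pResidual p G) (conjFun (pResidual p G) θ a) a⁻¹ = θ := by
          rw [conjFun_conjFun, mul_inv_cancel, conjFun_one]
        rw [ha'] at h1
        exact h1 }
  have h1 : (P : Subgroup G) ≤ T := fun g hg => hfix g hg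
  have h2 : pResidual p G ≤ T := by
    intro a ha
    show conjFun (pResidual p G) θ a = θ
    funext n
    rw [conjFun_apply]
    have hcf := Helper35.isClassFunction_of_isCharacter hθ
    exact hcf n ⟨a, ha⟩
  have h3 : T = ⊤ := by
    apply top_le_iff.mp
    rw [← pres_sup_sylow p P]
    exact sup_le h1 h2
  have : g ∈ T := by rw [h3]; exact Subgroup.mem_top g
  exact this

/-- **Thompson.**  If `p` divides the degree of every nonlinear irreducible character of `G`,
then `G` has a normal `p`-complement. -/
theorem thompson_pcomplement {G : Type u} [Group G] [Finite G] (p : ℕ) (hp : p.Prime)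
    (hdeg : ∀ χ : IrrCharacter G, charDegree (χ : G → ℂ) ≠ 1 → p ∣ charDegree (χ : G → ℂ)) :
    ∃ N : Subgroup G, N.Normal ∧ (Nat.card N).Coprime p ∧ ∃ k : ℕ, N.index = p ^ k := by
  classical
  haveI : Fact p.Prime := ⟨hp⟩
  haveI hA : (pResidual p G).Normal := pres_normal p
  refine ⟨pResidual p G, hA, ?_, pres_index p⟩
  letI : Fintype (IrrCharacter ↥(pResidual p G)) := Fintype.ofFinite _
  letI act : MulAction G (IrrCharacter ↥(pResidual p G)) := irrConjAction (pResidual p G)
  let P : Sylow p G := default
  let f : IrrCharacter ↥(pResidual p G) → ℕ := fun θ =>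
    if charDegree (θ : ↥(pResidual p G) → ℂ) = 1 then 0
    else charDegree (θ : ↥(pResidual p G) → ℂ) ^ 2
  have hsmul : ∀ (g : G) (θ : IrrCharacter ↥(pResidual p G)),
      ((g • θ : IrrCharacter ↥(pResidual p G)) : ↥(pResidual p G) → ℂ) =
        conjFun (pResidual p G) (θ : ↥(pResidual p G) → ℂ) g⁻¹ := fun g θ => rfl
  have hf : ∀ (g : (P : Subgroup G)) (θ : IrrCharacter ↥(pResidual p G)), f (g • θ) = f θ := by
    intro g θ
    show (if charDegree (((g : G) • θ : IrrCharacter ↥(pResidual p G)) :
        ↥(pResidual p G) → ℂ) = 1 then 0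
      else charDegree (((g : G) • θ : IrrCharacter ↥(pResidual p G)) :
        ↥(pResidual p G) → ℂ) ^ 2) = _
    rw [hsmul, charDegree_conjFun]
  have hsum := sum_modEq_sum_fixed p P.isPGroup' f hf
  -- the fixed points contribute multiples of p
  have hfixed : p ∣ ∑ θ : IrrCharacter ↥(pResidual p G) with
      (∀ g : (P : Subgroup G), g • θ = θ), f θ := by
    apply Finset.dvd_sum
    intro θ hθ
    have hθfix : ∀ g : (P : Subgroup G), g • θ = θ := (Finset.mem_filter.mp hθ).2
    show p ∣ (if charDegree (θ : ↥(pResidual p G) → ℂ) = 1 then 0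
      else charDegree (θ : ↥(pResidual p G) → ℂ) ^ 2)
    by_cases h1 : charDegree (θ : ↥(pResidual p G) → ℂ) = 1
    · rw [if_pos h1]; exact dvd_zero p
    · rw [if_neg h1]
      by_cases h2 : p ∣ charDegree (θ : ↥(pResidual p G) → ℂ)
      · exact dvd_pow h2 two_ne_zero
      · exfalso
        have hinvP : ∀ g ∈ (P : Subgroup G),
            conjFun (pResidual p G) (θ : ↥(pResidual p G) → ℂ) g = θ := by
          intro g hg
          have h3 := hθfix ⟨g⁻¹, inv_mem hg⟩
          have h4 := congrArg Subtype.val h3
          have h5 : ((((⟨g⁻¹, inv_mem hg⟩ : (P : Subgroup G)) • θ :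
              IrrCharacter ↥(pResidual p G))) : ↥(pResidual p G) → ℂ) =
              conjFun (pResidual p G) (θ : ↥(pResidual p G) → ℂ) (g⁻¹)⁻¹ := rfl
          rw [inv_inv] at h5
          rw [← h5]
          exact h4
        have hinv : ∀ (g : G) (n : ↥(pResidual p G)),
            (θ : ↥(pResidual p G) → ℂ) ⟨g * n * g⁻¹, hA.conj_mem (n : G) n.2 g⟩ =
              (θ : ↥(pResidual p G) → ℂ) n := by
          intro g n
          have h3 := invariant_of_sylow_fixed p P (θ : ↥(pResidual p G) → ℂ)
            (Helper35.isChar_of_irr θ.2) hinvP g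
          have h4 := congrFun h3 n
          rw [conjFun_apply] at h4
          exact h4
        obtain ⟨χ, hχ, hχN, -, -⟩ := ext_of_no_pquot p (pResidual p G) (pres_index p)
          (pres_no_pquot p) (θ : ↥(pResidual p G) → ℂ) θ.2 hinv h2
        have hdegeq : charDegree χ = charDegree (θ : ↥(pResidual p G) → ℂ) := by
          unfold charDegree
          have := hχN 1
          rw [← this]
          rfl
        have h6 := hdeg ⟨χ, hχ⟩ (by
          show charDegree χ ≠ 1
          rw [hdegeq]; exact h1)
        apply h2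
        rw [← hdegeq]
        exact h6
  have hfz : p ∣ ∑ θ : IrrCharacter ↥(pResidual p G), f θ :=
    (Nat.modEq_zero_iff_dvd.mp (hsum.trans (Nat.modEq_zero_iff_dvd.mpr hfixed)))
  -- the sum of squares
  have hsq := Helper83.sum_charDegree_sq (G := ↥(pResidual p G))
  have hlin := Helper83.card_linear' (G := ↥(pResidual p G))
  have hsplit : ∑ θ : IrrCharacter ↥(pResidual p G),
      charDegree (θ : ↥(pResidual p G) → ℂ) ^ 2 =
      ∑ θ : IrrCharacter ↥(pResidual p G), f θ + (commutator ↥(pResidual p G)).index := by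
    rw [← hlin, Nat.card_eq_fintype_card, Fintype.card_subtype, Finset.card_eq_sum_ones,
      Finset.sum_filter, ← Finset.sum_add_distrib]
    apply Finset.sum_congr rfl
    intro θ _
    show _ = (if charDegree (θ : ↥(pResidual p G) → ℂ) = 1 then 0
      else charDegree (θ : ↥(pResidual p G) → ℂ) ^ 2) + _
    by_cases h1 : charDegree (θ : ↥(pResidual p G) → ℂ) = 1
    · rw [if_pos h1, if_pos h1, h1]; norm_num
    · rw [if_neg h1, if_neg h1, add_zero]
  rw [hsq] at hsplit
  rw [Nat.coprime_comm, Nat.Prime.coprime_iff_not_dvd hp]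
  intro hdvd
  rw [hsplit] at hdvd
  exact pres_commutator_index (G := G) p ((Nat.dvd_add_right hfz).mp hdvd)

end Cfsg.Agent.Lib.Helper84
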